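import Mathlib
import Cfsg.Agent.Lib.Cores
import Cfsg.Agent.Lib.HallHigman
import Cfsg.Prelude.Def_CaseTheorems
import Cfsg.Prelude.Def_Involutions
import Cfsg.Agent.StdEven.Syl
import Cfsg.Agent.TwoFusion.RankTwoBasic
import Cfsg.Agent.PLocal.ConjFunctor
import Cfsg.Agent.Transfer.ThompsonTransfer
import Cfsg.Agent.TwoFusion.NoNormalFour
import Cfsg.Agent.TwoFusion.MaxClass
import Cfsg.Agent.Involutions.RankThree
import Cfsg.Agent.S0215
import Cfsg.Agent.BpAlt.Row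
import Cfsg.Agent.FastGrp
import Cfsg.Agent.Prune
set_option linter.all false
prune_inst 0x7ffcfefbaff8addfffff7fffffffdffffdfdfffffffffffbfffdfbffffff6b6ffff7fbafffecdafffff7f296b6f87b13ffffeeffeffbdd7ffffd5ff47fffff9fffffbfad51d6b83e1ffe6ffffbfbffffffffffffffffffffffffffffffffffffffffffffffff
open scoped Cfsg.Agent.FastGrp

-- part: H444/CentralMod
section
/-!
# Central involutions of a Sylow 2-subgroup in a solvable group

`C` is a finite solvable group, `S` a Sylow 2-subgroup, `t` an involution of `Z(S)` and `N` a normal subgroup such that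
`t` is central modulo `N`. Then some `t v`, `v ∈ N` an involution of `Z(S)` (or `v = 1`), is central modulo `O(C)`.
-/

set_option autoImplicit false

namespace Cfsg.Agent.H444.CentralMod

open Subgroup Cfsg

section

variable {C : Type*} [Group C]

/-- `Ω₁(Z(O₂(C)))` -/
def omegaZ (C : Type*) [Group C] : Subgroup C where
  carrier := {x | x ∈ pCore 2 C ∧ x * x = 1 ∧ ∀ q ∈ pCore 2 C, q * x = x * q}
  one_mem' := ⟨one_mem _, by simp, by simp⟩
  mul_mem' := by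
    rintro x y ⟨h1, h2, h3⟩ ⟨h4, h5, h6⟩
    refine ⟨mul_mem h1 h4, ?_, fun q hq => ?_⟩
    · calc x * y * (x * y) = x * (y * x) * y := by group
        _ = x * (x * y) * y := by rw [h3 y h4]
        _ = (x * x) * (y * y) := by group
        _ = 1 := by rw [h2, h5, mul_one]
    · rw [← mul_assoc, h3 q hq, mul_assoc, h6 q hq, mul_assoc]
  inv_mem' := by
    rintro x ⟨h1, h2, h3⟩
    have hx : x⁻¹ = x := inv_eq_of_mul_eq_one_right h2
    rw [hx]
    exact ⟨h1, h2, h3⟩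

theorem mem_omegaZ {x : C} : x ∈ omegaZ C ↔ x ∈ pCore 2 C ∧ x * x = 1 ∧ ∀ q ∈ pCore 2 C, q * x = x * q := Iff.rfl

theorem omegaZ_normal : (omegaZ C).Normal := by
  have hn : (pCore 2 C).Normal := Cfsg.Agent.Lib.Cores.pCore_normal 2
  refine ⟨fun x hx g => ?_⟩
  obtain ⟨h1, h2, h3⟩ := mem_omegaZ.1 hx
  refine mem_omegaZ.2 ⟨hn.conj_mem x h1 g, ?_, fun q hq => ?_⟩
  · calc g * x * g⁻¹ * (g * x * g⁻¹) = g * (x * x) * g⁻¹ := by group
      _ = 1 := by rw [h2]; group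
  · have h4 : g⁻¹ * q * g ∈ pCore 2 C := by
      have := hn.conj_mem q hq g⁻¹
      rwa [inv_inv] at this
    calc q * (g * x * g⁻¹) = g * ((g⁻¹ * q * g) * x) * g⁻¹ := by group
      _ = g * (x * (g⁻¹ * q * g)) * g⁻¹ := by rw [h3 _ h4]
      _ = g * x * g⁻¹ * q := by group

theorem omegaZ_comm (x y : omegaZ C) : x * y = y * x :=
  Subtype.ext ((mem_omegaZ.1 y.2).2.2 x (mem_omegaZ.1 x.2).1)

/-- Core-free version. -/
theorem exists_central [Finite C] (S : Sylow 2 C) (hc : centralizer (pCore 2 C : Set C) ≤ pCore 2 C) {t : C}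
    (ht2 : t * t = 1) (htS : ∀ s ∈ (S : Subgroup C), s * t = t * s) (N : Subgroup C) [hNn : N.Normal]
    (hN : ∀ c : C, c * t * c⁻¹ * t⁻¹ ∈ N) :
    ∃ v ∈ N, v ∈ pCore 2 C ∧ v * v = 1 ∧ ∀ c : C, c * (t * v) = (t * v) * c := by
  classical
  have htQ : t ∈ pCore 2 C := by
    apply hc
    rw [mem_centralizer_iff]
    intro q hq
    exact htS q (Cfsg.Agent.Lib.Cores.pCore_le_sylow S hq)
  have htV : t ∈ omegaZ C :=
    mem_omegaZ.2 ⟨htQ, ht2, fun q hq => htS q (Cfsg.Agent.Lib.Cores.pCore_le_sylow S hq)⟩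
  have hVn : (omegaZ C).Normal := omegaZ_normal
  letI : CommGroup (omegaZ C) := { (inferInstance : Group (omegaZ C)) with mul_comm := omegaZ_comm }
  set t' : omegaZ C := ⟨t, htV⟩ with ht'
  set K : Subgroup C := centralizer ({t} : Set C) with hK
  have hSK : (S : Subgroup C) ≤ K := by
    intro s hs
    rw [hK, mem_centralizer_singleton_iff]
    exact htS s hs
  have hodd : Odd K.index := by
    have h1 : ¬ 2 ∣ (S : Subgroup C).index := S.not_dvd_index
    have h2 : K.index ∣ (S : Subgroup C).index := index_dvd_of_le hSK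
    rw [← Nat.not_even_iff_odd, even_iff_two_dvd]
    exact fun h => h1 (h.trans h2)
  letI : Fintype (C ⧸ K) := Fintype.ofFinite _
  have hwd : ∀ c₁ c₂ : C, c₁⁻¹ * c₂ ∈ K → MulAut.conjNormal c₁ t' = MulAut.conjNormal c₂ t' := by
    intro c₁ c₂ h
    rw [hK, mem_centralizer_singleton_iff] at h
    apply Subtype.ext
    rw [MulAut.conjNormal_apply, MulAut.conjNormal_apply]
    show c₁ * t * c₁⁻¹ = c₂ * t * c₂⁻¹
    calc c₁ * t * c₁⁻¹ = c₁ * (t * (c₁⁻¹ * c₂)) * c₂⁻¹ := by group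
      _ = c₁ * (c₁⁻¹ * c₂ * t) * c₂⁻¹ := by rw [h]
      _ = c₂ * t * c₂⁻¹ := by group
  let f : C ⧸ K → omegaZ C := fun q => Quotient.liftOn' q (fun c => MulAut.conjNormal c t')
    (fun c₁ c₂ h => hwd c₁ c₂ (QuotientGroup.leftRel_apply.1 h))
  have hf : ∀ c : C, f (c : C ⧸ K) = MulAut.conjNormal c t' := fun c => rfl
  have hfs : ∀ (c : C) (q : C ⧸ K), f (c • q) = MulAut.conjNormal c (f q) := by
    intro c q
    induction q using QuotientGroup.induction_on with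
    | H g =>
      rw [hf]
      show f ((c * g : C) : C ⧸ K) = _
      rw [hf, map_mul]
      rfl
  set P : omegaZ C := ∏ q : C ⧸ K, f q with hP
  have hPfix : ∀ c : C, MulAut.conjNormal c P = P := by
    intro c
    rw [hP, map_prod]
    refine Fintype.prod_equiv (MulAction.toPerm c) _ _ fun q => ?_
    rw [MulAction.toPerm_apply, hfs]
  have htm : t' ^ Fintype.card (C ⧸ K) = t' := by
    have h1 : Fintype.card (C ⧸ K) = K.index := by rw [Subgroup.index, Nat.card_eq_fintype_card]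
    obtain ⟨k, hk⟩ := hodd
    rw [h1, hk, pow_succ, pow_mul]
    have h2 : t' ^ 2 = 1 := by
      rw [pow_two]
      exact Subtype.ext ht2
    rw [h2, one_pow, one_mul]
  have hPv : P = t' * ∏ q : C ⧸ K, (t'⁻¹ * f q) := by
    have h1 : P = ∏ q : C ⧸ K, (t' * (t'⁻¹ * f q)) := by
      rw [hP]
      refine Finset.prod_congr rfl fun q _ => ?_
      rw [mul_inv_cancel_left]
    rw [h1, Finset.prod_mul_distrib, Finset.prod_const, Finset.card_univ, htm]
  set v' : omegaZ C := ∏ q : C ⧸ K, (t'⁻¹ * f q) with hv'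
  have hvN : v' ∈ N.subgroupOf (omegaZ C) := by
    rw [hv']
    refine Subgroup.prod_mem _ fun q _ => ?_
    induction q using QuotientGroup.induction_on with
    | H g =>
      rw [hf, mem_subgroupOf]
      show t⁻¹ * (g * t * g⁻¹) ∈ N
      have h1 := hN g
      have h2 := hNn.conj_mem _ h1 t⁻¹
      have h3 : t⁻¹ * (g * t * g⁻¹ * t⁻¹) * t⁻¹⁻¹ = t⁻¹ * (g * t * g⁻¹) := by group
      rwa [h3] at h2
  obtain ⟨h1, h2, h3⟩ := mem_omegaZ.1 v'.2
  refine ⟨v', hvN, h1, h2, fun c => ?_⟩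
  have h4 : c * (P : C) * c⁻¹ = P := by
    have := congrArg Subtype.val (hPfix c)
    rwa [MulAut.conjNormal_apply] at this
  have h5 : (P : C) = t * v' := congrArg Subtype.val hPv
  rw [h5] at h4
  exact mul_inv_eq_iff_eq_mul.1 h4

/-- The general version. -/
theorem exists_central_mod [Finite C] [Group.IsSolvable C] (S : Sylow 2 C) {t : C} (ht : t ∈ (S : Subgroup C))
    (ht2 : t * t = 1) (htS : ∀ s ∈ (S : Subgroup C), s * t = t * s) (N : Subgroup C) (hNn : N.Normal)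
    (hXN : pPrimeCore 2 C ≤ N) (hN : ∀ c : C, c * t * c⁻¹ * t⁻¹ ∈ N) :
    ∃ v ∈ N, v ∈ (S : Subgroup C) ∧ v * v = 1 ∧ (∀ s ∈ (S : Subgroup C), s * v = v * s) ∧
      ∀ c : C, c * (t * v) * c⁻¹ * (t * v)⁻¹ ∈ pPrimeCore 2 C := by
  have h2 : Fact (Nat.Prime 2) := ⟨Nat.prime_two⟩
  have hXn : (pPrimeCore 2 C).Normal := Cfsg.Agent.Lib.Cores.pPrimeCore_normal 2
  set X := pPrimeCore 2 C with hX
  set π := QuotientGroup.mk' X with hπ
  have hπs : Function.Surjective π := QuotientGroup.mk'_surjective X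
  have hcop : (Nat.card X).Coprime 2 := Cfsg.Agent.Lib.Cores.pPrimeCore_coprime 2
  -- `S ∩ X = 1`
  have hSX : ∀ s ∈ (S : Subgroup C), s ∈ X → s = 1 := by
    intro s hs hsX
    obtain ⟨k, hk⟩ := IsPGroup.iff_orderOf.1 S.isPGroup' ⟨s, hs⟩
    rw [Subgroup.orderOf_mk] at hk
    have h3 : orderOf s ∣ Nat.card X := by
      rw [← Subgroup.orderOf_mk s hsX]
      exact _root_.orderOf_dvd_natCard _
    rw [hk] at h3
    rcases Nat.eq_zero_or_pos k with rfl | hk0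
    · rwa [pow_zero, orderOf_eq_one_iff] at hk
    · exfalso
      have h4 : 2 ∣ Nat.card X := (dvd_pow_self 2 hk0.ne').trans h3
      have h5 := Nat.Coprime.coprime_dvd_left h4 hcop
      norm_num at h5
  have hsol : Group.IsSolvable (C ⧸ X) := inferInstance
  have hcore : pPrimeCore 2 (C ⧸ X) = ⊥ := Cfsg.Agent.Lib.Cores.pPrimeCore_quotient_pPrimeCore 2
  have hcc := Cfsg.Agent.Lib.HallHigman.centralizer_pCore_le_of_solvable (G := C ⧸ X) 2 hcore
  set T : Sylow 2 (C ⧸ X) := S.mapSurjective hπs with hT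
  have hTmem : ∀ y, y ∈ (T : Subgroup (C ⧸ X)) ↔ ∃ s ∈ (S : Subgroup C), π s = y := by
    intro y
    rfl
  have hNn' : (N.map π).Normal := hNn.map π hπs
  obtain ⟨v, hvN, hvQ, hv2, hvc⟩ := exists_central T hcc (t := π t) (by rw [← map_mul, ht2, map_one])
    (by
      rintro _ ⟨s, hs, rfl⟩
      have := congrArg π (htS s hs)
      rwa [map_mul, map_mul] at this) (N.map π)
    (by
      intro c
      obtain ⟨c, rfl⟩ := hπs c
      exact ⟨_, hN c, by simp only [map_mul, map_inv]⟩)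
  obtain ⟨s, hs, hsv⟩ := (hTmem v).1 (Cfsg.Agent.Lib.Cores.pCore_le_sylow T hvQ)
  have hkey : ∀ c : C, c * (t * s) * c⁻¹ * (t * s)⁻¹ ∈ X := by
    intro c
    have h3 := hvc (π c)
    rw [← hsv] at h3
    rw [← QuotientGroup.eq_one_iff]
    show π (c * (t * s) * c⁻¹ * (t * s)⁻¹) = 1
    simp only [map_mul, map_inv]
    rw [h3]
    group
  refine ⟨s, ?_, hs, ?_, ?_, hkey⟩
  · obtain ⟨n, hn, hnv⟩ := hvN
    have h3 : π (n⁻¹ * s) = 1 := by rw [map_mul, map_inv, hnv, hsv, inv_mul_cancel]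
    have h4 : n⁻¹ * s ∈ X := (QuotientGroup.eq_one_iff _).1 h3
    have h5 := N.mul_mem hn (hXN h4)
    rwa [mul_inv_cancel_left] at h5
  · apply hSX _ ((S : Subgroup C).mul_mem hs hs)
    rw [← QuotientGroup.eq_one_iff]
    show π (s * s) = 1
    rw [map_mul, hsv, hv2]
  · intro y hy
    have h3 : y * (t * s) * y⁻¹ * (t * s)⁻¹ = 1 := by
      refine hSX _ ?_ (hkey y)
      exact mul_mem (mul_mem (mul_mem hy (mul_mem ht hs)) (inv_mem hy)) (inv_mem (mul_mem ht hs))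
    have h4 : y * (t * s) = t * s * y := by
      rw [mul_inv_eq_one, mul_inv_eq_iff_eq_mul] at h3
      exact h3
    have h5 : t * (y * s) = t * (s * y) := by
      rw [← mul_assoc, ← htS y hy, mul_assoc, h4, mul_assoc]
    exact mul_left_cancel h5

end

end Cfsg.Agent.H444.CentralMod
end

-- part: H444/ZNSit
section
/-!
# ZN-groups: the residual `H = O²(G)` and the involutions of `Z(S)`
-/

set_option autoImplicit false
set_option linter.unusedSectionVars false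

namespace Cfsg.Agent.H444.ZNSit

open Subgroup Cfsg Cfsg.Agent.StdEven.Syl

/-! ### `O(C)` in the ambient group -/

section oc

variable {G : Type*} [Group G]

/-- `O(C)` as a subgroup of the ambient group. -/
def oc (C : Subgroup G) : Subgroup G := (pPrimeCore 2 C).map C.subtype

theorem oc_le (C : Subgroup G) : oc C ≤ C := by
  rintro _ ⟨x, -, rfl⟩
  exact x.2

variable [Finite G]

theorem oc_odd (C : Subgroup G) : Odd (Nat.card (oc C)) := by
  have h1 : (Nat.card (pPrimeCore 2 C)).Coprime 2 := Cfsg.Agent.Lib.Cores.pPrimeCore_coprime 2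
  have h2 : Nat.card (oc C) = Nat.card (pPrimeCore 2 C) :=
    (Nat.card_congr ((pPrimeCore 2 C).equivMapOfInjective C.subtype C.subtype_injective).toEquiv).symm
  rw [h2]
  exact Nat.coprime_two_right.1 h1

theorem le_oc {C Y : Subgroup G} (hYC : Y ≤ C) (hn : ∀ c ∈ C, ∀ y ∈ Y, c * y * c⁻¹ ∈ Y) (hodd : Odd (Nat.card Y)) :
    Y ≤ oc C := by
  have h1 : (Y.subgroupOf C).Normal := ⟨fun y hy c => by
    rw [mem_subgroupOf] at hy ⊢
    exact hn c c.2 _ hy⟩
  have h2 : Nat.card (Y.subgroupOf C) = Nat.card Y := Nat.card_congr (subgroupOfEquivOfLe hYC).toEquiv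
  have h3 : Y.subgroupOf C ≤ pPrimeCore 2 C := Cfsg.Agent.Lib.Cores.le_pPrimeCore h1 (by
    rw [h2]
    exact Nat.coprime_two_right.2 hodd)
  intro y hy
  exact ⟨⟨y, hYC hy⟩, h3 (mem_subgroupOf.2 hy), rfl⟩

theorem conj_mem_oc {C : Subgroup G} {g x : G} (hg : g ∈ normalizer (C : Set G)) (hx : x ∈ oc C) :
    g * x * g⁻¹ ∈ oc C := by
  have h1 : (oc C).map (MulAut.conj g).toMonoidHom ≤ oc C := by
    apply le_oc
    · rintro _ ⟨y, hy, rfl⟩
      exact conj_mem_of_mem_normalizer hg (oc_le C hy)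
    · intro c hc y hy
      rw [mem_map_conj] at hy ⊢
      have h2 : g⁻¹ * c * g ∈ C := conj_inv_mem_of_mem_normalizer hg hc
      have h3 : g⁻¹ * (c * y * c⁻¹) * g = (g⁻¹ * c * g) * (g⁻¹ * y * g) * (g⁻¹ * c * g)⁻¹ := by group
      rw [h3]
      have hn : (pPrimeCore 2 C).Normal := Cfsg.Agent.Lib.Cores.pPrimeCore_normal 2
      obtain ⟨z, hz, hzy⟩ := hy
      rw [← hzy]
      exact ⟨(⟨_, h2⟩ * z * ⟨_, h2⟩⁻¹ :), hn.conj_mem z hz _, rfl⟩
    · have h2 : Nat.card ((oc C).map (MulAut.conj g).toMonoidHom) = Nat.card (oc C) :=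
        (Nat.card_congr ((oc C).equivMapOfInjective _ (MulAut.conj g).injective).toEquiv).symm
      rw [h2]
      exact oc_odd C
  exact h1 (conj_mem_map g hx)

theorem conj_mem_oc' {C : Subgroup G} {g x : G} (hg : g ∈ C) (hx : x ∈ oc C) :
    g * x * g⁻¹ ∈ oc C := conj_mem_oc (C.le_normalizer hg) hx

/-- an element of 2-power order in a subgroup of odd order is trivial -/
theorem eq_one_of_mem {R X : Subgroup G} (hR : IsPGroup 2 R) (hX : Odd (Nat.card X)) {y : G} (hy : y ∈ R)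
    (hyX : y ∈ X) : y = 1 := by
  obtain ⟨k, hk⟩ := IsPGroup.iff_orderOf.1 hR ⟨y, hy⟩
  rw [Subgroup.orderOf_mk] at hk
  have h3 : orderOf y ∣ Nat.card X := by
    rw [← Subgroup.orderOf_mk y hyX]
    exact _root_.orderOf_dvd_natCard _
  rw [hk] at h3
  rcases Nat.eq_zero_or_pos k with rfl | hk0
  · rwa [pow_zero, orderOf_eq_one_iff] at hk
  · exfalso
    have h4 : 2 ∣ Nat.card X := (dvd_pow_self 2 hk0.ne').trans h3
    exact (Nat.not_even_iff_odd.2 hX) (even_iff_two_dvd.2 h4)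

/-- If the involution `t` is moved by `m` inside `tY`, `Y` of odd order, it can be moved back by an element of `Y`. -/
theorem exists_mul_conj_eq {Y : Subgroup G} (hY : Odd (Nat.card Y)) {t m : G} (ht : t * t = 1)
    (hm : m * t * m⁻¹ * t⁻¹ ∈ Y) : ∃ e ∈ Y, (e * m) * t * (e * m)⁻¹ = t := by
  set y := m * t * m⁻¹ * t⁻¹ with hy
  have hti : t⁻¹ = t := inv_eq_of_mul_eq_one_right ht
  have h1 : y * t = m * t * m⁻¹ := by rw [hy, inv_mul_cancel_right]
  have h2 : (y * t) * (y * t) = 1 := by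
    rw [h1]
    calc m * t * m⁻¹ * (m * t * m⁻¹) = m * (t * t) * m⁻¹ := by group
      _ = 1 := by rw [ht]; group
  -- `t` inverts `y`
  have h3 : t * y * t⁻¹ = y⁻¹ := by
    rw [hti, eq_inv_iff_mul_eq_one]
    have h4 : t * (y * t * (y * t)) * t⁻¹ = 1 := by rw [h2]; group
    calc t * y * t * y = t * (y * t * (y * t)) * t⁻¹ := by group
      _ = 1 := h4
  have hodd : Odd (orderOf y) := by
    have h4 : orderOf y ∣ Nat.card Y := by
      rw [← Subgroup.orderOf_mk y hm]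
      exact _root_.orderOf_dvd_natCard _
    exact Odd.of_dvd_nat hY h4
  obtain ⟨j, hj⟩ := hodd
  refine ⟨y ^ j, pow_mem hm j, ?_⟩
  have h5 : t * y ^ j * t⁻¹ = (y ^ j)⁻¹ := by
    rw [← conj_pow, h3, inv_pow]
  have h6 : t * (y ^ j)⁻¹ = y ^ j * t := by
    have h7 := congrArg (·⁻¹) h5
    simp only [mul_inv_rev, inv_inv] at h7
    calc t * (y ^ j)⁻¹ = t * ((y ^ j)⁻¹ * t⁻¹) * t := by group
      _ = y ^ j * t := by rw [h7]
  calc y ^ j * m * t * (y ^ j * m)⁻¹ = y ^ j * (m * t * m⁻¹) * (y ^ j)⁻¹ := by group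
    _ = y ^ j * y * (t * (y ^ j)⁻¹) := by rw [← h1]; group
    _ = y ^ (2 * j + 1) * t := by rw [h6, two_mul, pow_succ, pow_add]; group
    _ = t := by rw [← hj, pow_orderOf_eq_one, one_mul]

theorem isSolvable_of_le {C L : Subgroup G} (h : C ≤ L) (hL : Group.IsSolvable L) : Group.IsSolvable C :=
  Group.isSolvable_of_isSolvable_injective (f := Subgroup.inclusion h) (Subgroup.inclusion_injective h)

end oc

/-- The situation: `S` a Sylow 2-subgroup and `H = O²(G)`. -/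
structure Sit (G : Type*) [Group G] (S H : Subgroup G) : Prop where
  even : Even (Nat.card G)
  syl : IsSyl S ⊤
  Hn : ∀ g, ∀ h ∈ H, g * h * g⁻¹ ∈ H
  HS : ∀ g : G, ∃ h ∈ H, ∃ s ∈ S, g = h * s
  odd : ∀ g : G, Odd (orderOf g) → g ∈ H
  solc : ∀ z : G, z * z = 1 → z ≠ 1 → Group.IsSolvable (centralizer ({z} : Set G))
  hZ : ∀ g : G, (∀ t ∈ S, t * t = 1 → (∀ s ∈ S, s * t = t * s) → g * t = t * g) → g ∈ normalizer (S : Set G)
  O1 : ∀ N : Subgroup G, N.Normal → Odd (Nat.card N) → N = ⊥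
  O2 : ∀ N : Subgroup G, N.Normal → IsPGroup 2 N → N = ⊥

namespace Sit

variable {G : Type*} [Group G] [Finite G] {S H : Subgroup G}

theorem le_of_odd (h : Sit G S H) {Y : Subgroup G} (hY : Odd (Nat.card Y)) : Y ≤ H := by
  intro y hy
  apply h.odd
  have h4 : orderOf y ∣ Nat.card Y := by
    rw [← Subgroup.orderOf_mk y hy]
    exact _root_.orderOf_dvd_natCard _
  exact Odd.of_dvd_nat hY h4

theorem comm_mem (h : Sit G S H) {t : G} (htc : ∀ s ∈ S, s * t = t * s) (g : G) : g * t * g⁻¹ * t⁻¹ ∈ H := by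
  obtain ⟨k, hk, s, hs, rfl⟩ := h.HS g
  have h1 : k * s * t * (k * s)⁻¹ * t⁻¹ = k * (t * k⁻¹ * t⁻¹) := by
    calc k * s * t * (k * s)⁻¹ * t⁻¹ = k * (s * t) * s⁻¹ * k⁻¹ * t⁻¹ := by group
      _ = k * (t * s) * s⁻¹ * k⁻¹ * t⁻¹ := by rw [htc s hs]
      _ = _ := by group
  rw [h1]
  exact mul_mem hk (h.Hn t _ (inv_mem hk))

theorem sylH (h : Sit G S H) : IsSyl (S ⊓ H) H := by
  apply h.syl.inf_normal le_top
  intro g _
  exact mem_normalizer_of_conj_le (h.Hn g)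

theorem norm_inf (h : Sit G S H) {g : G} (hg : g ∈ normalizer (S : Set G)) :
    g ∈ normalizer ((S ⊓ H : Subgroup G) : Set G) :=
  mem_normalizer_of_conj_le fun x hx =>
    mem_inf.2 ⟨conj_mem_of_mem_normalizer hg (mem_inf.1 hx).1, h.Hn g x (mem_inf.1 hx).2⟩

theorem sol_centralizer (h : Sit G S H) {z : G} (hz2 : z * z = 1) (hz1 : z ≠ 1) :
    Group.IsSolvable (centralizer ({z} : Set G)) := h.solc z hz2 hz1

theorem central_mod (h : Sit G S H) (C : Subgroup G) (hC : Group.IsSolvable C) (hSC : IsSyl (S ⊓ C) C) {t : G}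
    (htS : t ∈ S) (htC : t ∈ C) (ht2 : t * t = 1) (htc : ∀ s ∈ S, s * t = t * s) :
    ∃ v ∈ H, v ∈ S ∧ v ∈ C ∧ v * v = 1 ∧ (∀ s ∈ S, s ∈ C → s * v = v * s) ∧
      ∀ c ∈ C, c * (t * v) * c⁻¹ * (t * v)⁻¹ ∈ oc C := by
  have hP : ∀ x : C, x ∈ (hSC.toSylow : Subgroup C) ↔ (x : G) ∈ S := by
    intro x
    rw [hSC.coe_toSylow, mem_subgroupOf, mem_inf]
    exact ⟨fun h => h.1, fun h => ⟨h, x.2⟩⟩
  have hn : (H.subgroupOf C).Normal := ⟨fun x hx c => by
    rw [mem_subgroupOf] at hx ⊢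
    exact h.Hn c _ hx⟩
  obtain ⟨v, hvN, hvS, hv2, hvc, hvm⟩ := CentralMod.exists_central_mod hSC.toSylow (t := ⟨t, htC⟩)
    ((hP _).2 htS) (Subtype.ext ht2) (fun s hs => Subtype.ext (htc s ((hP s).1 hs))) (H.subgroupOf C) hn
    (by
      intro x hx
      rw [mem_subgroupOf]
      exact h.le_of_odd (oc_odd C) ⟨x, hx, rfl⟩)
    (by
      intro c
      rw [mem_subgroupOf]
      exact h.comm_mem htc c)
  refine ⟨v, mem_subgroupOf.1 hvN, (hP v).1 hvS, v.2, congrArg Subtype.val hv2, ?_, ?_⟩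
  · intro s hs hsC
    exact congrArg Subtype.val (hvc ⟨s, hsC⟩ ((hP _).2 hs))
  · intro c hc
    exact ⟨_, hvm ⟨c, hc⟩, rfl⟩

end Sit

end Cfsg.Agent.H444.ZNSit
end

-- part: H444/RankTwoMain
section
/-!
# Groups of 2-rank two with a 2-central involution whose centralizer is 2-closed modulo an odd order subgroup

`K` is a finite group with `O²(K) = K`, of 2-rank at most two, `R` a Sylow 2-subgroup whose centre contains only one
involution `z`, and `C(z) = X N_{C(z)}(R)` for some subgroup `X` of odd order normal in `C(z)`. If `z` is conjugate to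
another element of `R`, then `R` is dihedral or quasi-dihedral.
-/

set_option autoImplicit false
set_option linter.unusedSectionVars false

namespace Cfsg.Agent.H444.RankTwoMain

open Subgroup Cfsg Cfsg.Agent.StdEven.Syl

/-- The hypotheses. -/
structure Hyp (K : Type*) [Group K] (R X : Subgroup K) (z : K) : Prop where
  syl : IsSyl R ⊤
  res : Cfsg.pResidual 2 K = ⊤
  rank : Cfsg.PRankLE 2 2 K
  zR : z ∈ R
  z1 : z ≠ 1
  z2 : z * z = 1
  zc : ∀ r ∈ R, r * z = z * r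
  uz : ∀ x ∈ R, x * x = 1 → (∀ r ∈ R, r * x = x * r) → x = 1 ∨ x = z
  Xodd : Odd (Nat.card X)
  Xc : ∀ x ∈ X, x * z = z * x
  Xn : ∀ c, c * z = z * c → ∀ x ∈ X, c * x * c⁻¹ ∈ X
  Xz : ∀ c, c * z = z * c → ∃ x ∈ X, x * c ∈ normalizer (R : Set K)

variable {K : Type*} [Group K] [Finite K] {R X : Subgroup K} {z : K}

/-- an element of 2-power order in a subgroup of odd order is trivial -/
theorem eq_one_of_mem {R X : Subgroup K} (hR : IsPGroup 2 R) (hX : Odd (Nat.card X)) {y : K} (hy : y ∈ R)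
    (hyX : y ∈ X) : y = 1 := by
  obtain ⟨k, hk⟩ := IsPGroup.iff_orderOf.1 hR ⟨y, hy⟩
  rw [Subgroup.orderOf_mk] at hk
  have h3 : orderOf y ∣ Nat.card X := by
    rw [← Subgroup.orderOf_mk y hyX]
    exact _root_.orderOf_dvd_natCard _
  rw [hk] at h3
  rcases Nat.eq_zero_or_pos k with rfl | hk0
  · rwa [pow_zero, orderOf_eq_one_iff] at hk
  · exfalso
    have h4 : 2 ∣ Nat.card X := (dvd_pow_self 2 hk0.ne').trans h3
    exact (Nat.not_even_iff_odd.2 hX) (even_iff_two_dvd.2 h4)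

namespace Hyp

/-- 2-subgroups of `C(z)` containing `w ∈ R` are conjugate into `R` by elements of `X` commuting with `w`. -/
theorem exists_conj_X (h : Hyp K R X z) {Q : Subgroup K} (hQ : IsPGroup 2 Q) (hQz : ∀ q ∈ Q, q * z = z * q) {w : K}
    (hw : w ∈ R) (hwQ : w ∈ Q) : ∃ x ∈ X, x * w = w * x ∧ ∀ q ∈ Q, x * q * x⁻¹ ∈ R := by
  have hRC : IsSyl R (centralizer ({z} : Set K)) := h.syl.mono (fun r hr => by
    rw [mem_centralizer_singleton_iff]
    exact h.zc r hr) le_top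
  obtain ⟨c, hc, hcQ⟩ := hRC.exists_conj hQ (fun q hq => by
    rw [mem_centralizer_singleton_iff]
    exact hQz q hq)
  have hc' : c⁻¹ * z = z * c⁻¹ := mem_centralizer_singleton_iff.1 (inv_mem hc)
  obtain ⟨x, hx, hxc⟩ := h.Xz c⁻¹ hc'
  have key : ∀ q ∈ Q, x * q * x⁻¹ ∈ R := by
    intro q hq
    have h1 := conj_mem_of_mem_normalizer hxc (hcQ q hq)
    have h2 : x * c⁻¹ * (c * q * c⁻¹) * (x * c⁻¹)⁻¹ = x * q * x⁻¹ := by group
    rwa [h2] at h1
  refine ⟨x, hx, ?_, key⟩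
  have h1 : x * w * x⁻¹ * w⁻¹ ∈ R := mul_mem (key w hwQ) (inv_mem hw)
  have h2 : x * w * x⁻¹ * w⁻¹ ∈ X := by
    have h3 : x * w * x⁻¹ * w⁻¹ = x * (w * x⁻¹ * w⁻¹) := by group
    rw [h3]
    exact mul_mem hx (h.Xn w (h.zc w hw) _ (inv_mem hx))
  have h3 := eq_one_of_mem h.syl.two h.Xodd h1 h2
  rw [mul_inv_eq_one, mul_inv_eq_iff_eq_mul] at h3
  exact h3

/-- For `w ∈ R` conjugate to `z`, `C_R(w) = R ∩ Rᵍ = C_{Rᵍ}(z)` for some `g` with `w = zᵍ`. -/
theorem exists_conj_eq (h : Hyp K R X z) {w : K} (hw : w ∈ R) (hconj : ∃ g : K, g * z * g⁻¹ = w) :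
    ∃ g : K, g * z * g⁻¹ = w ∧ (∀ a ∈ R, a * w = w * a → g⁻¹ * a * g ∈ R) ∧
      ∀ b : K, g⁻¹ * b * g ∈ R → b * z = z * b → b ∈ R ∧ b * w = w * b := by
  obtain ⟨g₀, hg₀⟩ := hconj
  set A : Subgroup K := R ⊓ centralizer ({w} : Set K) with hA
  have hAp : IsPGroup 2 A := h.syl.two.to_le inf_le_left
  have hRC : IsSyl R (centralizer ({z} : Set K)) := h.syl.mono (fun r hr => by
    rw [mem_centralizer_singleton_iff]
    exact h.zc r hr) le_top
  obtain ⟨c, hc, hcQ⟩ := hRC.exists_conj (isPGroup_map hAp g₀⁻¹) (by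
    intro y hy
    rw [mem_map_conj, inv_inv] at hy
    obtain ⟨hy1, hy2⟩ := mem_inf.1 hy
    rw [mem_centralizer_singleton_iff] at hy2 ⊢
    rw [← hg₀] at hy2
    have h1 : g₀ * y * g₀⁻¹ * (g₀ * z * g₀⁻¹) = g₀ * (y * z) * g₀⁻¹ := by group
    have h2 : g₀ * z * g₀⁻¹ * (g₀ * y * g₀⁻¹) = g₀ * (z * y) * g₀⁻¹ := by group
    rw [h1, h2] at hy2
    exact mul_left_cancel (mul_right_cancel hy2))
  have hc' : c * z = z * c := mem_centralizer_singleton_iff.1 hc
  set g : K := g₀ * c⁻¹ with hg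
  have hgz : g * z * g⁻¹ = w := by
    rw [hg, ← hg₀]
    have h1 : c⁻¹ * z * c = z := by
      rw [mul_assoc, ← hc', inv_mul_cancel_left]
    calc g₀ * c⁻¹ * z * (g₀ * c⁻¹)⁻¹ = g₀ * (c⁻¹ * z * c) * g₀⁻¹ := by group
      _ = _ := by rw [h1]
  have hAg : ∀ a ∈ R, a * w = w * a → g⁻¹ * a * g ∈ R := by
    intro a ha haw
    have h1 : g₀⁻¹ * a * g₀ ∈ A.map (MulAut.conj g₀⁻¹).toMonoidHom := by
      rw [mem_map_conj]
      have h2 : g₀⁻¹⁻¹ * (g₀⁻¹ * a * g₀) * g₀⁻¹ = a := by group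
      rw [h2]
      exact mem_inf.2 ⟨ha, mem_centralizer_singleton_iff.2 haw⟩
    have h2 := hcQ _ h1
    have h3 : c * (g₀⁻¹ * a * g₀) * c⁻¹ = g⁻¹ * a * g := by rw [hg]; group
    rwa [h3] at h2
  refine ⟨g, hgz, hAg, ?_⟩
  set B : Subgroup K := R.map (MulAut.conj g).toMonoidHom ⊓ centralizer ({z} : Set K) with hB
  have hBp : IsPGroup 2 B := (isPGroup_map h.syl.two g).to_le inf_le_left
  have hwz : w * z = z * w := h.zc w hw
  have hAB : A ≤ B := by
    intro a ha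
    obtain ⟨ha1, ha2⟩ := mem_inf.1 ha
    refine mem_inf.2 ⟨mem_map_conj.2 (hAg a ha1 (mem_centralizer_singleton_iff.1 ha2)), ?_⟩
    rw [mem_centralizer_singleton_iff]
    exact h.zc a ha1
  have hwA : w ∈ A := mem_inf.2 ⟨hw, mem_centralizer_singleton_iff.2 rfl⟩
  obtain ⟨x, hx, hxw, hxB⟩ := h.exists_conj_X hBp (fun b hb => mem_centralizer_singleton_iff.1 (mem_inf.1 hb).2) hw
    (hAB hwA)
  have hBw : ∀ b ∈ B, b * w = w * b := by
    intro b hb
    have h1 := mem_map_conj.1 (mem_inf.1 hb).1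
    have h2 := h.zc _ h1
    rw [← hgz]
    calc b * (g * z * g⁻¹) = g * ((g⁻¹ * b * g) * z) * g⁻¹ := by group
      _ = g * (z * (g⁻¹ * b * g)) * g⁻¹ := by rw [h2]
      _ = _ := by group
  have hcard : Nat.card B ≤ Nat.card A := by
    have h1 : B.map (MulAut.conj x).toMonoidHom ≤ A := by
      rintro _ ⟨b, hb, rfl⟩
      refine mem_inf.2 ⟨hxB b hb, ?_⟩
      rw [mem_centralizer_singleton_iff]
      show x * b * x⁻¹ * w = w * (x * b * x⁻¹)
      have hxw' : x⁻¹ * w = w * x⁻¹ := by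
        rw [inv_mul_eq_iff_eq_mul, ← mul_assoc, hxw, mul_inv_cancel_right]
      calc x * b * x⁻¹ * w = x * b * (x⁻¹ * w) := by group
        _ = x * (b * w) * x⁻¹ := by rw [hxw']; group
        _ = (x * w) * b * x⁻¹ := by rw [hBw b hb]; group
        _ = w * (x * b * x⁻¹) := by rw [hxw]; group
    have h2 : Nat.card (B.map (MulAut.conj x).toMonoidHom) = Nat.card B :=
      (Nat.card_congr (B.equivMapOfInjective _ (MulAut.conj x).injective).toEquiv).symm
    rw [← h2]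
    exact Subgroup.card_le_of_le h1
  have hAB' : A = B := Subgroup.eq_of_le_of_card_ge hAB hcard
  intro b hb hbz
  have h1 : b ∈ A := by
    rw [hAB']
    exact mem_inf.2 ⟨mem_map_conj.2 hb, mem_centralizer_singleton_iff.2 hbz⟩
  obtain ⟨h2, h3⟩ := mem_inf.1 h1
  exact ⟨h2, mem_centralizer_singleton_iff.1 h3⟩


open Cfsg.Agent.TwoFusion.RankTwoBasic

theorem four (h : Hyp K R X z) {w : K} (hw : w ∈ R) (hwz : w ≠ z) (hconj : ∃ g : K, g * z * g⁻¹ = w) : Four z w := by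
  obtain ⟨g, hg⟩ := hconj
  refine ⟨h.z2, ?_, h.zc w hw, h.z1, ?_, fun h1 => hwz h1.symm⟩
  · rw [← hg]
    calc g * z * g⁻¹ * (g * z * g⁻¹) = g * (z * z) * g⁻¹ := by group
      _ = 1 := by rw [h.z2]; group
  · rintro rfl
    apply h.z1
    have h1 : g * z = g * 1 := by rw [mul_one, ← mul_inv_eq_one]; exact hg
    exact mul_left_cancel h1

/-- the involutions of `C_R(w)` -/
theorem invol (h : Hyp K R X z) {w : K} (hf : Four z w) {a : K} (ha : a ∈ R) (haw : a * w = w * a) (ha2 : a * a = 1) :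
    a = 1 ∨ a = z ∨ a = w ∨ a = z * w :=
  mem_of_commute h.rank hf.zz hf.tt ha2 hf.comm.symm (h.zc a ha).symm haw.symm hf.z1 hf.t1 hf.ne

theorem exists_swaps (h : Hyp K R X z) {w : K} (hw : w ∈ R) (hwz : w ≠ z) (hconj : ∃ g : K, g * z * g⁻¹ = w) :
    (∃ s ∈ R, s ∈ normalizer ((R ⊓ centralizer ({w} : Set K) : Subgroup K) : Set K) ∧ s * w * s⁻¹ = z * w) ∧
      ∃ s ∈ normalizer ((R ⊓ centralizer ({w} : Set K) : Subgroup K) : Set K),
        s * z * s⁻¹ = z * w ∧ s * w * s⁻¹ = w := by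
  have h2 : Fact (Nat.Prime 2) := ⟨Nat.prime_two⟩
  have hf := h.four hw hwz hconj
  obtain ⟨g, hgz, hAg, hgB⟩ := h.exists_conj_eq hw hconj
  set A : Subgroup K := R ⊓ centralizer ({w} : Set K) with hA
  have hmem : ∀ a, a ∈ A ↔ a ∈ R ∧ a * w = w * a := by
    intro a
    rw [hA, mem_inf, mem_centralizer_singleton_iff]
  have hwA : w ∈ A := (hmem w).2 ⟨hw, rfl⟩
  have hzA : z ∈ A := (hmem z).2 ⟨h.zR, (h.zc w hw).symm⟩
  have hinv : ∀ a ∈ A, a * a = 1 → a = 1 ∨ a = z ∨ a = w ∨ a = z * w := fun a ha ha2 =>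
    h.invol hf ((hmem a).1 ha).1 ((hmem a).1 ha).2 ha2
  constructor
  · have hlt : A < R := by
      refine lt_of_le_of_ne inf_le_left fun he => ?_
      rcases h.uz w hw hf.tt (fun r hr => ((hmem r).1 (he ▸ hr)).2) with h1 | h1
      · exact hf.t1 h1
      · exact hwz h1
    obtain ⟨s, hs, hsA⟩ := SetLike.exists_of_lt (Cfsg.Agent.PLocal.ConjFunctor.lt_inf_normalizer h.syl.two hlt)
    obtain ⟨hsR, hsN⟩ := mem_inf.1 hs
    refine ⟨s, hsR, hsN, ?_⟩
    have h1 : s * w * s⁻¹ ∈ A := conj_mem_of_mem_normalizer hsN hwA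
    rcases hinv _ h1 (by
      calc s * w * s⁻¹ * (s * w * s⁻¹) = s * (w * w) * s⁻¹ := by group
        _ = 1 := by rw [hf.tt]; group) with h3 | h3 | h3 | h3
    · exfalso
      apply hf.t1
      have h4 : s * w = s * 1 := by rw [mul_one, ← mul_inv_eq_one]; exact h3
      exact mul_left_cancel h4
    · exfalso
      apply hwz
      rw [mul_inv_eq_iff_eq_mul, ← h.zc s hsR] at h3
      exact mul_left_cancel h3
    · exfalso
      apply hsA
      rw [mul_inv_eq_iff_eq_mul] at h3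
      exact (hmem s).2 ⟨hsR, h3⟩
    · exact h3
  · set Rg : Subgroup K := R.map (MulAut.conj g).toMonoidHom with hRg
    have hwc : ∀ r ∈ Rg, r * w = w * r := by
      intro r hr
      have h1 := h.zc _ (mem_map_conj.1 hr)
      rw [← hgz]
      calc r * (g * z * g⁻¹) = g * ((g⁻¹ * r * g) * z) * g⁻¹ := by group
        _ = g * (z * (g⁻¹ * r * g)) * g⁻¹ := by rw [h1]
        _ = _ := by group
    have hle : A ≤ Rg := fun a ha => mem_map_conj.2 (hAg a ((hmem a).1 ha).1 ((hmem a).1 ha).2)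
    have hlt : A < Rg := by
      refine lt_of_le_of_ne hle fun he => ?_
      have h3 : g⁻¹ * z * g ∈ R := mem_map_conj.1 (hle hzA)
      have h4 : g⁻¹ * z * g * (g⁻¹ * z * g) = 1 := by
        calc g⁻¹ * z * g * (g⁻¹ * z * g) = g⁻¹ * (z * z) * g := by group
          _ = 1 := by rw [h.z2]; group
      have h5 : ∀ r ∈ R, r * (g⁻¹ * z * g) = g⁻¹ * z * g * r := by
        intro r hr
        have h6 : g * r * g⁻¹ ∈ A := by
          rw [he]
          exact conj_mem_map g hr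
        have h7 := h.zc _ ((hmem _).1 h6).1
        calc r * (g⁻¹ * z * g) = g⁻¹ * (g * r * g⁻¹ * z) * g := by group
          _ = g⁻¹ * (z * (g * r * g⁻¹)) * g := by rw [h7]
          _ = _ := by group
      rcases h.uz _ h3 h4 h5 with h6 | h6
      · apply h.z1
        have : z = g * (g⁻¹ * z * g) * g⁻¹ := by group
        rw [this, h6]
        group
      · apply hwz
        rw [← hgz]
        have : z = g * (g⁻¹ * z * g) * g⁻¹ := by group
        rw [h6] at this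
        exact this.symm
    obtain ⟨s, hs, hsA⟩ := SetLike.exists_of_lt
      (Cfsg.Agent.PLocal.ConjFunctor.lt_inf_normalizer (isPGroup_map h.syl.two g) hlt)
    obtain ⟨hsR, hsN⟩ := mem_inf.1 hs
    have hsw : s * w * s⁻¹ = w := by
      rw [hwc s hsR, mul_inv_cancel_right]
    refine ⟨s, hsN, ?_, hsw⟩
    have h1 : s * z * s⁻¹ ∈ A := conj_mem_of_mem_normalizer hsN hzA
    rcases hinv _ h1 (by
      calc s * z * s⁻¹ * (s * z * s⁻¹) = s * (z * z) * s⁻¹ := by group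
        _ = 1 := by rw [h.z2]; group) with h3 | h3 | h3 | h3
    · exfalso
      apply h.z1
      have h4 : s * z = s * 1 := by rw [mul_one, ← mul_inv_eq_one]; exact h3
      exact mul_left_cancel h4
    · exfalso
      apply hsA
      rw [mul_inv_eq_iff_eq_mul] at h3
      obtain ⟨h4, h5⟩ := hgB s (mem_map_conj.1 hsR) h3
      exact (hmem s).2 ⟨h4, h5⟩
    · exfalso
      apply hwz
      have h4 : s * w * s⁻¹ = s * z * s⁻¹ := by rw [hsw, h3]
      exact mul_left_cancel (mul_right_cancel h4)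
    · exact h3

/-- Either `C_R(w) = {1, z, w, zw}` or `w` is a square in `R`. -/
theorem four_or_sq (h : Hyp K R X z) {w : K} (hw : w ∈ R) (hwz : w ≠ z) (hconj : ∃ g : K, g * z * g⁻¹ = w) :
    (∀ a ∈ R, a * w = w * a → a = 1 ∨ a = z ∨ a = w ∨ a = z * w) ∨ ∃ y ∈ R, y * y = w := by
  have hf := h.four hw hwz hconj
  obtain ⟨⟨s, hsR, hsN, hs⟩, s', hsN', hs'z, hs'w⟩ := h.exists_swaps hw hwz hconj
  set A : Subgroup K := R ⊓ centralizer ({w} : Set K) with hA
  have hmem : ∀ a, a ∈ A ↔ a ∈ R ∧ a * w = w * a := by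
    intro a
    rw [hA, mem_inf, mem_centralizer_singleton_iff]
  by_contra hcon
  push Not at hcon
  obtain ⟨⟨a, haR, haw, ha1, ha2, ha3, ha4⟩, hsq⟩ := hcon
  have haA : a ∈ A := (hmem a).2 ⟨haR, haw⟩
  -- the first `k` with `a ^ (2 ^ k) ∈ {1, z, w, zw}`
  have hex : ∃ k : ℕ, a ^ 2 ^ k = 1 ∨ a ^ 2 ^ k = z ∨ a ^ 2 ^ k = w ∨ a ^ 2 ^ k = z * w := by
    obtain ⟨k, hk⟩ := h.syl.two ⟨a, haR⟩
    exact ⟨k, Or.inl (congrArg Subtype.val hk)⟩
  classical
  obtain ⟨k, hk, hkmin⟩ : ∃ k : ℕ, (a ^ 2 ^ k = 1 ∨ a ^ 2 ^ k = z ∨ a ^ 2 ^ k = w ∨ a ^ 2 ^ k = z * w) ∧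
      ∀ j < k, ¬ (a ^ 2 ^ j = 1 ∨ a ^ 2 ^ j = z ∨ a ^ 2 ^ j = w ∨ a ^ 2 ^ j = z * w) :=
    ⟨Nat.find hex, Nat.find_spec hex, fun j hj => Nat.find_min hex hj⟩
  have hk0 : k ≠ 0 := by
    rintro rfl
    rw [pow_zero, pow_one] at hk
    rcases hk with h1 | h1 | h1 | h1
    · exact ha1 h1
    · exact ha2 h1
    · exact ha3 h1
    · exact ha4 h1
  obtain ⟨j, rfl⟩ := Nat.exists_eq_succ_of_ne_zero hk0
  set y := a ^ 2 ^ j with hy
  have hyA : y ∈ A := pow_mem haA _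
  have hyy : y * y = a ^ 2 ^ (j + 1) := by
    rw [hy, ← pow_add, ← two_mul, ← pow_succ']
  have hyn := hkmin j (Nat.lt_succ_self j)
  rw [Nat.succ_eq_add_one, ← hyy] at hk
  have hsqA : ∀ x ∈ A, x * x ≠ w := fun x hx => hsq x ((hmem x).1 hx).1
  have hcj : ∀ n x : K, n * x * n⁻¹ * (n * x * n⁻¹) = n * (x * x) * n⁻¹ := fun n x => by group
  have hszw : s * (z * w) * s⁻¹ = w := by
    have h1 : s * z * s⁻¹ = z := by rw [h.zc s hsR, mul_inv_cancel_right]
    rw [Cfsg.Agent.TwoFusion.RankTwoBasic.conj_mul, h1, hs, hf.zzt]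
  have hszwA : ∀ x ∈ A, x * x ≠ z * w := by
    intro x hx hxx
    refine hsqA _ (conj_mem_of_mem_normalizer hsN hx) ?_
    rw [hcj, hxx, hszw]
  rcases hk with h1 | h1 | h1 | h1
  · exact hyn (h.invol hf ((hmem y).1 hyA).1 ((hmem y).1 hyA).2 h1)
  · refine hszwA _ (conj_mem_of_mem_normalizer hsN' hyA) ?_
    rw [hcj, h1, hs'z]
  · exact hsqA y hyA h1
  · exact hszwA y hyA h1


/-- The subgroup `{1, z, w, zw}`. -/
def fourGroup {K : Type*} [Group K] {z w : K} (hf : Four z w) : Subgroup K where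
  carrier := {a | a = 1 ∨ a = z ∨ a = w ∨ a = z * w}
  one_mem' := Or.inl rfl
  mul_mem' := by
    have hwz : w * z = z * w := hf.comm
    rintro a b (rfl | rfl | rfl | rfl) (rfl | rfl | rfl | rfl)
    · left; rw [mul_one]
    · right; left; rw [one_mul]
    · right; right; left; rw [one_mul]
    · right; right; right; rw [one_mul]
    · right; left; rw [mul_one]
    · left; exact hf.zz
    · right; right; right; rfl
    · right; right; left; exact hf.zzt
    · right; right; left; rw [mul_one]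
    · right; right; right; exact hwz
    · left; exact hf.tt
    · right; left; exact hf.tzt
    · right; right; right; rw [mul_one]
    · right; right; left; exact hf.ztz
    · right; left; exact hf.ztt
    · left; exact hf.ztzt
  inv_mem' := by
    rintro a (rfl | rfl | rfl | rfl)
    · left; exact inv_one
    · right; left; exact inv_eq_of_mul_eq_one_right hf.zz
    · right; right; left; exact inv_eq_of_mul_eq_one_right hf.tt
    · right; right; right; exact inv_eq_of_mul_eq_one_right hf.ztzt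

theorem mem_fourGroup {K : Type*} [Group K] {z w : K} (hf : Four z w) {a : K} :
    a ∈ fourGroup hf ↔ a = 1 ∨ a = z ∨ a = w ∨ a = z * w := Iff.rfl

theorem card_fourGroup {K : Type*} [Group K] {z w : K} (hf : Four z w) : Nat.card (fourGroup hf) = 4 := by
  classical
  have h1 : ((fourGroup hf : Subgroup K) : Set K) = (({1, z, w, z * w} : Finset K) : Set K) := by
    ext a
    simp [mem_fourGroup]
  have h2 : Nat.card (fourGroup hf) = (({1, z, w, z * w} : Finset K)).card := by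
    have h3 : Nat.card (fourGroup hf) = ((fourGroup hf : Subgroup K) : Set K).ncard := rfl
    rw [h3, h1, Set.ncard_coe_finset]
  rw [h2]
  have e1 := hf.z1
  have e2 := hf.t1
  have e3 := hf.ne
  have e4 := hf.zt1
  have e5 := hf.ztnez
  have e6 := hf.ztnet
  rw [Finset.card_insert_of_notMem, Finset.card_insert_of_notMem, Finset.card_insert_of_notMem, Finset.card_singleton]
  · simpa using e6.symm
  · simp only [Finset.mem_insert, Finset.mem_singleton, not_or]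
    exact ⟨e3, e5.symm⟩
  · simp only [Finset.mem_insert, Finset.mem_singleton, not_or]
    exact ⟨e1.symm, e2.symm, e4.symm⟩

/-- If `C_R(w) = {1, z, w, zw}` then `R` is dihedral or quasi-dihedral. -/
theorem concl_of_four (h : Hyp K R X z) {w : K} (hw : w ∈ R) (hwz : w ≠ z) (hconj : ∃ g : K, g * z * g⁻¹ = w)
    (h4 : ∀ a ∈ R, a * w = w * a → a = 1 ∨ a = z ∨ a = w ∨ a = z * w) :
    (∃ m : ℕ, 2 ≤ m ∧ Nonempty (R ≃* DihedralGroup m)) ∨ Cfsg.IsQuasiDihedral R := by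
  have hf := h.four hw hwz hconj
  have hf' : Four (⟨z, h.zR⟩ : R) ⟨w, hw⟩ :=
    { zz := Subtype.ext hf.zz
      tt := Subtype.ext hf.tt
      comm := Subtype.ext hf.comm
      z1 := fun h1 => hf.z1 (congrArg Subtype.val h1)
      t1 := fun h1 => hf.t1 (congrArg Subtype.val h1)
      ne := fun h1 => hf.ne (congrArg Subtype.val h1) }
  refine Cfsg.Agent.TwoFusion.MaxClass.dihedral_or_qd_of_card_centralizer_eq_four h.syl.two ⟨w, hw⟩ ?_ ?_ ?_
  · rw [Subgroup.orderOf_mk]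
    exact orderOf_eq_prime (by rw [pow_two]; exact hf.tt) hf.t1
  · intro hc
    rw [Subgroup.mem_center_iff] at hc
    rcases h.uz w hw hf.tt (fun r hr => congrArg Subtype.val (hc ⟨r, hr⟩)) with h1 | h1
    · exact hf.t1 h1
    · exact hwz h1
  · have h5 : centralizer ({(⟨w, hw⟩ : R)} : Set R) = fourGroup hf' := by
      ext a
      rw [mem_centralizer_singleton_iff, mem_fourGroup]
      constructor
      · intro ha
        rcases h4 a a.2 (congrArg Subtype.val ha) with h6 | h6 | h6 | h6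
        · exact Or.inl (Subtype.ext h6)
        · exact Or.inr (Or.inl (Subtype.ext h6))
        · exact Or.inr (Or.inr (Or.inl (Subtype.ext h6)))
        · exact Or.inr (Or.inr (Or.inr (Subtype.ext h6)))
      · rintro (rfl | rfl | rfl | rfl)
        · rw [one_mul, mul_one]
        · exact hf'.comm.symm
        · rfl
        · rw [hf'.ztt, ← mul_assoc, hf'.comm, hf'.ztt]
    rw [h5, card_fourGroup]

theorem sq_comm_of (u : K) (hu : ∀ r ∈ R, r * u * r⁻¹ = u ∨ r * u * r⁻¹ = z * u) (hzc : ∀ r ∈ R, r * z = z * r)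
    (hz2 : z * z = 1) : ∀ r ∈ R, r * r * u = u * (r * r) := by
  intro r hr
  have h1 : r * r * u * (r * r)⁻¹ = u := by
    have h2 : r * r * u * (r * r)⁻¹ = r * (r * u * r⁻¹) * r⁻¹ := by group
    rw [h2]
    rcases hu r hr with h3 | h3
    · rw [h3, h3]
    · rw [h3]
      have h4 : r * (z * u) * r⁻¹ = (r * z * r⁻¹) * (r * u * r⁻¹) := by group
      rw [h4, h3, hzc r hr, mul_inv_cancel_right, ← mul_assoc, hz2, one_mul]
  exact mul_inv_eq_iff_eq_mul.1 h1


end Hyp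

open Cfsg.Agent.TwoFusion.RankTwoBasic

/-! ### even and odd action on a four-group -/

section parity

variable {K : Type*} [Group K] {z w : K}

theorem mem_of_pow_mem_of_coprime {H : Subgroup K} {n : K} {a b : ℕ} (hab : a.Coprime b) (ha : n ^ a ∈ H)
    (hb : n ^ b ∈ H) : n ∈ H := by
  obtain ⟨u, v, huv⟩ := Nat.isCoprime_iff_coprime.2 hab
  have h1 : n = (n ^ a) ^ u * (n ^ b) ^ v := by
    rw [← zpow_natCast, ← zpow_natCast, ← zpow_mul, ← zpow_mul, ← zpow_add, mul_comm (a : ℤ), mul_comm (b : ℤ), huv,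
      zpow_one]
  rw [h1]
  exact H.mul_mem (H.zpow_mem ha u) (H.zpow_mem hb v)

/-- `n` commutes with all or with none of `z`, `w`, `zw`. -/
def Ev (z w n : K) : Prop :=
  (n * z = z * n ∧ n * w = w * n) ∨ (n * z ≠ z * n ∧ n * w ≠ w * n ∧ n * (z * w) ≠ z * w * n)

theorem ev_of_cases (hf : Four z w) {n : K} (h : (n * z * n⁻¹ = z ∧ n * w * n⁻¹ = w) ∨
    (n * z * n⁻¹ = w ∧ n * w * n⁻¹ = z * w) ∨ (n * z * n⁻¹ = z * w ∧ n * w * n⁻¹ = z)) : Ev z w n := by
  rcases h with ⟨h1, h2⟩ | ⟨h1, h2⟩ | ⟨h1, h2⟩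
  · exact Or.inl ⟨mul_inv_eq_iff_eq_mul.1 h1, mul_inv_eq_iff_eq_mul.1 h2⟩
  · refine Or.inr ⟨fun h3 => ?_, fun h3 => ?_, fun h3 => ?_⟩
    · rw [h3, mul_inv_cancel_right] at h1
      exact hf.ne h1
    · rw [h3, mul_inv_cancel_right] at h2
      exact hf.ztnet h2.symm
    · have h4 := Cfsg.Agent.TwoFusion.RankTwoBasic.conj_mul n z w
      rw [h1, h2, h3, mul_inv_cancel_right, hf.tzt] at h4
      exact hf.ztnez h4
  · refine Or.inr ⟨fun h3 => ?_, fun h3 => ?_, fun h3 => ?_⟩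
    · rw [h3, mul_inv_cancel_right] at h1
      exact hf.ztnez h1.symm
    · rw [h3, mul_inv_cancel_right] at h2
      exact hf.ne h2.symm
    · have h4 := Cfsg.Agent.TwoFusion.RankTwoBasic.conj_mul n z w
      rw [h1, h2, h3, mul_inv_cancel_right, hf.ztz] at h4
      exact hf.ztnet h4

theorem cases_of_ev (hf : Four z w) {n : K} (hp : Pres z w n) (h : Ev z w n) :
    (n * z * n⁻¹ = z ∧ n * w * n⁻¹ = w) ∨
    (n * z * n⁻¹ = w ∧ n * w * n⁻¹ = z * w) ∨ (n * z * n⁻¹ = z * w ∧ n * w * n⁻¹ = z) := by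
  rcases hp.cases hf with ⟨h1, h2⟩ | ⟨h1, h2⟩ | ⟨h1, h2⟩ | ⟨h1, h2⟩ | ⟨h1, h2⟩ | ⟨h1, h2⟩
  · exact Or.inl ⟨h1, h2⟩
  · exfalso
    rcases h with ⟨-, h4⟩ | ⟨h3, -, -⟩
    · rw [h4, mul_inv_cancel_right] at h2
      exact hf.ztnet h2.symm
    · exact h3 (mul_inv_eq_iff_eq_mul.1 h1)
  · exfalso
    rcases h with ⟨h3, -⟩ | ⟨-, -, h5⟩
    · rw [h3, mul_inv_cancel_right] at h1
      exact hf.ne h1
    · apply h5
      apply mul_inv_eq_iff_eq_mul.1
      rw [Cfsg.Agent.TwoFusion.RankTwoBasic.conj_mul, h1, h2, hf.comm]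
  · exact Or.inr (Or.inl ⟨h1, h2⟩)
  · exact Or.inr (Or.inr ⟨h1, h2⟩)
  · exfalso
    rcases h with ⟨h3, -⟩ | ⟨-, h4, -⟩
    · rw [h3, mul_inv_cancel_right] at h1
      exact hf.ztnez h1.symm
    · exact h4 (mul_inv_eq_iff_eq_mul.1 h2)

theorem ev_mul (hf : Four z w) {n m : K} (hn : Pres z w n) (hm : Pres z w m) (h1 : Ev z w n) (h2 : Ev z w m) :
    Ev z w (n * m) := by
  apply ev_of_cases hf
  have e1 : n * m * z * (n * m)⁻¹ = n * (m * z * m⁻¹) * n⁻¹ := conj_conj n m z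
  have e2 : n * m * w * (n * m)⁻¹ = n * (m * w * m⁻¹) * n⁻¹ := conj_conj n m w
  have e3 := Cfsg.Agent.TwoFusion.RankTwoBasic.conj_mul n z w
  rw [e1, e2]
  rcases cases_of_ev hf hn h1 with ⟨a1, a2⟩ | ⟨a1, a2⟩ | ⟨a1, a2⟩ <;>
    rcases cases_of_ev hf hm h2 with ⟨b1, b2⟩ | ⟨b1, b2⟩ | ⟨b1, b2⟩ <;> rw [b1, b2] <;> rw [a1, a2] at e3
  · exact Or.inl ⟨a1, a2⟩
  · exact Or.inr (Or.inl ⟨a2, e3⟩)
  · exact Or.inr (Or.inr ⟨e3, a1⟩)
  · exact Or.inr (Or.inl ⟨a1, a2⟩)
  · rw [hf.tzt] at e3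
    exact Or.inr (Or.inr ⟨a2, e3⟩)
  · rw [hf.tzt] at e3
    exact Or.inl ⟨e3, a1⟩
  · exact Or.inr (Or.inr ⟨a1, a2⟩)
  · rw [hf.ztz] at e3
    exact Or.inl ⟨a2, e3⟩
  · rw [hf.ztz] at e3
    exact Or.inr (Or.inl ⟨e3, a1⟩)

theorem comm_inv_iff {n x : K} : n⁻¹ * x = x * n⁻¹ ↔ n * x = x * n := by
  constructor
  · intro h
    have := congrArg (fun y => n * y * n) h
    simp only [mul_assoc, inv_mul_cancel, mul_one, mul_inv_cancel_left] at this
    exact this.symm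
  · intro h
    rw [inv_mul_eq_iff_eq_mul, ← mul_assoc, h, mul_inv_cancel_right]

theorem ev_inv {n : K} (h : Ev z w n) : Ev z w n⁻¹ := by
  rcases h with ⟨h1, h2⟩ | ⟨h1, h2, h3⟩
  · exact Or.inl ⟨comm_inv_iff.2 h1, comm_inv_iff.2 h2⟩
  · exact Or.inr ⟨fun h => h1 (comm_inv_iff.1 h), fun h => h2 (comm_inv_iff.1 h), fun h => h3 (comm_inv_iff.1 h)⟩

theorem comm_conj_iff {g n x : K} : g * n * g⁻¹ * x = x * (g * n * g⁻¹) ↔ n * (g⁻¹ * x * g) = g⁻¹ * x * g * n := by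
  constructor
  · intro h
    have := congrArg (fun y => g⁻¹ * y * g) h
    calc n * (g⁻¹ * x * g) = g⁻¹ * (g * n * g⁻¹ * x) * g := by group
      _ = g⁻¹ * (x * (g * n * g⁻¹)) * g := by rw [h]
      _ = _ := by group
  · intro h
    calc g * n * g⁻¹ * x = g * (n * (g⁻¹ * x * g)) * g⁻¹ := by group
      _ = g * (g⁻¹ * x * g * n) * g⁻¹ := by rw [h]
      _ = _ := by group

theorem ev_conj (hf : Four z w) {g n : K} (hg : Pres z w g⁻¹) (h : Ev z w n) : Ev z w (g * n * g⁻¹) := by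
  have e1 : ∀ x : K, g⁻¹ * x * g⁻¹⁻¹ = g⁻¹ * x * g := fun x => by rw [inv_inv]
  have hc := hg.cases hf
  simp only [e1] at hc
  have e3 := Cfsg.Agent.TwoFusion.RankTwoBasic.conj_mul g⁻¹ z w
  simp only [e1] at e3
  unfold Ev at h ⊢
  have k : ∀ x : K, (g * n * g⁻¹ * x ≠ x * (g * n * g⁻¹)) ↔ (n * (g⁻¹ * x * g) ≠ g⁻¹ * x * g * n) :=
    fun x => not_congr comm_conj_iff
  rw [k, k, k, comm_conj_iff, comm_conj_iff, e3]
  rcases h with ⟨h1, h2⟩ | ⟨h1, h2, h3⟩
  · have h3 : n * (z * w) = z * w * n := by rw [← mul_assoc, h1, mul_assoc, h2, mul_assoc]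
    left
    rcases hc with ⟨c1, c2⟩ | ⟨c1, c2⟩ | ⟨c1, c2⟩ | ⟨c1, c2⟩ | ⟨c1, c2⟩ | ⟨c1, c2⟩ <;> rw [c1, c2]
    · exact ⟨h1, h2⟩
    · exact ⟨h1, h3⟩
    · exact ⟨h2, h1⟩
    · exact ⟨h2, h3⟩
    · exact ⟨h3, h1⟩
    · exact ⟨h3, h2⟩
  · right
    rcases hc with ⟨c1, c2⟩ | ⟨c1, c2⟩ | ⟨c1, c2⟩ | ⟨c1, c2⟩ | ⟨c1, c2⟩ | ⟨c1, c2⟩ <;> rw [c1, c2]
    · exact ⟨h1, h2, h3⟩
    · rw [hf.zzt]
      exact ⟨h1, h3, h2⟩
    · rw [hf.comm]
      exact ⟨h2, h1, h3⟩
    · rw [hf.tzt]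
      exact ⟨h2, h3, h1⟩
    · rw [hf.ztz]
      exact ⟨h3, h1, h2⟩
    · rw [hf.ztt]
      exact ⟨h3, h2, h1⟩

theorem ev_sq (hf : Four z w) {n : K} (hp : Pres z w n) : Ev z w (n * n) := by
  apply ev_of_cases hf
  rw [conj_conj, conj_conj]
  have e3 := Cfsg.Agent.TwoFusion.RankTwoBasic.conj_mul n z w
  rcases hp.cases hf with ⟨a1, a2⟩ | ⟨a1, a2⟩ | ⟨a1, a2⟩ | ⟨a1, a2⟩ | ⟨a1, a2⟩ | ⟨a1, a2⟩ <;>
    rw [a1, a2] at e3
  · exact Or.inl ⟨by rw [a1, a1], by rw [a2, a2]⟩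
  · rw [hf.zzt] at e3
    exact Or.inl ⟨by rw [a1, a1], by rw [a2, e3]⟩
  · exact Or.inl ⟨by rw [a1, a2], by rw [a2, a1]⟩
  · rw [hf.tzt] at e3
    exact Or.inr (Or.inr ⟨by rw [a1, a2], by rw [a2, e3]⟩)
  · rw [hf.ztz] at e3
    exact Or.inr (Or.inl ⟨by rw [a1, e3], by rw [a2, a1]⟩)
  · rw [hf.ztt] at e3
    exact Or.inl ⟨by rw [a1, e3], by rw [a2, a2]⟩

theorem comm_cube (hf : Four z w) {n : K} (hp : Pres z w n) (h : Ev z w n) : n ^ 3 * z = z * n ^ 3 := by
  have h1 : n ^ 3 = n * n * n := by rw [pow_succ, pow_two]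
  rw [h1, ← mul_inv_eq_iff_eq_mul, conj_conj, conj_conj]
  have e3 := Cfsg.Agent.TwoFusion.RankTwoBasic.conj_mul n z w
  rcases cases_of_ev hf hp h with ⟨a1, a2⟩ | ⟨a1, a2⟩ | ⟨a1, a2⟩ <;> rw [a1, a2] at e3
  · rw [a1, a1, a1]
  · rw [hf.tzt] at e3
    rw [a1, a2, e3]
  · rw [hf.ztz] at e3
    rw [a1, e3, a2]

end parity

/-- `{n ∈ N | Ev z w n}` -/
def evSub {K : Type*} [Group K] {z w : K} (hf : Four z w) (N : Subgroup K) (hN : ∀ n ∈ N, Pres z w n) :
    Subgroup N where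
  carrier := {n | Ev z w (n : K)}
  one_mem' := Or.inl ⟨by rw [Subgroup.coe_one, one_mul, mul_one], by rw [Subgroup.coe_one, one_mul, mul_one]⟩
  mul_mem' := fun {a b} ha hb => ev_mul hf (hN a a.2) (hN b b.2) ha hb
  inv_mem' := fun {a} ha => ev_inv ha

theorem evSub_normal {K : Type*} [Group K] {z w : K} (hf : Four z w) (N : Subgroup K)
    (hN : ∀ n ∈ N, Pres z w n) : (evSub hf N hN).Normal :=
  ⟨fun _ hn g => ev_conj hf (hN _ (inv_mem g.2)) hn⟩

variable {K : Type*} [Group K] [Finite K] {R X : Subgroup K} {z : K}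

theorem eq_one_of_pow {G : Type*} [Group G] {x : G} {a b : ℕ} (hab : a.Coprime b) (ha : x ^ a = 1)
    (hb : x ^ b = 1) : x = 1 := by
  have h1 : orderOf x ∣ 1 := by
    have h2 := Nat.dvd_gcd (orderOf_dvd_of_pow_eq_one ha) (orderOf_dvd_of_pow_eq_one hb)
    rwa [hab] at h2
  rwa [Nat.dvd_one, orderOf_eq_one_iff] at h1

theorem Hyp.exists_involution (h : Hyp K R X z) {w : K} (hw : w ∈ R) (hwz : w ≠ z)
    (hconj : ∃ g : K, g * z * g⁻¹ = w) (hRw : ∀ r ∈ R, r * w * r⁻¹ = w ∨ r * w * r⁻¹ = z * w) :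
    ∃ t ∈ R, t * t = 1 ∧ t * w ≠ w * t := by
  have : Fact (Nat.Prime 2) := ⟨Nat.prime_two⟩
  have : Fact (Nat.Prime 3) := ⟨Nat.prime_three⟩
  have hf := h.four hw hwz hconj
  obtain ⟨⟨s, hsR, hsN, hs⟩, s', hsN', hs'z, hs'w⟩ := h.exists_swaps hw hwz hconj
  set A : Subgroup K := R ⊓ centralizer ({w} : Set K) with hA
  have hmem : ∀ a, a ∈ A ↔ a ∈ R ∧ a * w = w * a := by
    intro a
    rw [hA, mem_inf, mem_centralizer_singleton_iff]
  have hAp : IsPGroup 2 A := h.syl.two.to_le inf_le_left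
  have hwA : w ∈ A := (hmem w).2 ⟨hw, rfl⟩
  have hzA : z ∈ A := (hmem z).2 ⟨h.zR, (h.zc w hw).symm⟩
  have hinv : ∀ a ∈ A, a * a = 1 → a = 1 ∨ a = z ∨ a = w ∨ a = z * w := fun a ha ha2 =>
    h.invol hf ((hmem a).1 ha).1 ((hmem a).1 ha).2 ha2
  set N : Subgroup K := normalizer (A : Set K) with hN
  have hPres : ∀ n ∈ N, Pres z w n := by
    intro n hn
    constructor
    · rcases hinv _ (conj_mem_of_mem_normalizer hn hzA) (by
        calc n * z * n⁻¹ * (n * z * n⁻¹) = n * (z * z) * n⁻¹ := by group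
          _ = 1 := by rw [hf.zz]; group) with h1 | h1
      · exfalso
        rw [mul_inv_eq_one] at h1
        exact hf.z1 (mul_eq_left.1 h1)
      · exact h1
    · rcases hinv _ (conj_mem_of_mem_normalizer hn hwA) (by
        calc n * w * n⁻¹ * (n * w * n⁻¹) = n * (w * w) * n⁻¹ := by group
          _ = 1 := by rw [hf.tt]; group) with h1 | h1
      · exfalso
        rw [mul_inv_eq_one] at h1
        exact hf.t1 (mul_eq_left.1 h1)
      · exact h1
  have hRN : R ≤ N := by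
    intro r hr
    apply mem_normalizer_of_conj_le
    intro a ha
    obtain ⟨haR, haw⟩ := (hmem a).1 ha
    refine (hmem _).2 ⟨mul_mem (mul_mem hr haR) (inv_mem hr), ?_⟩
    have h1 : a * (r⁻¹ * w * r) = r⁻¹ * w * r * a := by
      have h2 := hRw r⁻¹ (inv_mem hr)
      rw [inv_inv] at h2
      rcases h2 with h3 | h3
      · rw [h3, haw]
      · rw [h3, ← mul_assoc, h.zc a haR, mul_assoc, haw, mul_assoc]
    calc r * a * r⁻¹ * w = r * (a * (r⁻¹ * w * r)) * r⁻¹ := by group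
      _ = r * (r⁻¹ * w * r * a) * r⁻¹ := by rw [h1]
      _ = _ := by group
  obtain ⟨n, hnN, hnz, hnw⟩ := exists_three_cycle N hf hPres ⟨s', hsN', by rw [hs'z]; exact hf.ztnez⟩
    ⟨s, hsN, by rw [hs]; exact hf.ztnet⟩ ⟨s, hsN, by
      have h1 : s * z * s⁻¹ = z := by rw [h.zc s hsR, mul_inv_cancel_right]
      rw [Cfsg.Agent.TwoFusion.RankTwoBasic.conj_mul, h1, hs, hf.zzt]
      exact hf.ztnet.symm⟩
  set M0 : Subgroup N := evSub hf N hPres with hM0
  have hM0n : M0.Normal := evSub_normal hf N hPres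
  -- the 3-element `d`
  have hnE : Ev z w n := ev_of_cases hf (Or.inr (Or.inl ⟨hnz, hnw⟩))
  obtain ⟨k, m, hm3, hkm⟩ := Nat.exists_eq_pow_mul_and_not_dvd (orderOf_pos n).ne' 3 (by norm_num)
  set d : N := ⟨n, hnN⟩ ^ m with hd
  have hdn : (d : K) = n ^ m := rfl
  have hd3 : d ^ 3 ^ k = 1 := by
    apply Subtype.ext
    rw [Subgroup.coe_pow, hdn, ← pow_mul, mul_comm, ← hkm, pow_orderOf_eq_one, Subgroup.coe_one]
  have hdM : d ∈ M0 := pow_mem (show (⟨n, hnN⟩ : N) ∈ M0 from hnE) m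
  have hdz : (d : K) * z ≠ z * d := by
    intro h1
    have h2 : n ∈ centralizer ({z} : Set K) := by
      apply mem_of_pow_mem_of_coprime (a := 3) (b := m) ((Nat.Prime.coprime_iff_not_dvd Nat.prime_three).2 hm3)
      · exact mem_centralizer_singleton_iff.2 (comm_cube hf (hPres n hnN) hnE)
      · exact mem_centralizer_singleton_iff.2 h1
    rw [mem_centralizer_singleton_iff] at h2
    rw [h2, mul_inv_cancel_right] at hnz
    exact hf.ne hnz
  -- `C_A(d) = 1`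
  have hCd : ∀ a ∈ A, a * d = d * a → a = 1 := by
    intro a ha had
    by_contra ha1
    obtain ⟨j, hj⟩ := hAp ⟨a, ha⟩
    have hj' : a ^ 2 ^ j = 1 := congrArg Subtype.val hj
    have hex : ∃ i, a ^ 2 ^ i = 1 := ⟨j, hj'⟩
    classical
    obtain ⟨i, hi, himin⟩ : ∃ i, a ^ 2 ^ i = 1 ∧ ∀ l < i, a ^ 2 ^ l ≠ 1 :=
      ⟨Nat.find hex, Nat.find_spec hex, fun l hl => Nat.find_min hex hl⟩
    have hi0 : i ≠ 0 := by
      rintro rfl
      rw [pow_zero, pow_one] at hi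
      exact ha1 hi
    obtain ⟨l, rfl⟩ := Nat.exists_eq_succ_of_ne_zero hi0
    have hv1 := himin l (Nat.lt_succ_self l)
    have hvA : a ^ 2 ^ l ∈ A := pow_mem ha _
    have hvv : a ^ 2 ^ l * a ^ 2 ^ l = 1 := by
      rw [← pow_add, ← two_mul, ← pow_succ']
      exact hi
    have hvd : (d : K) * a ^ 2 ^ l = a ^ 2 ^ l * d := ((Commute.pow_left (show Commute a (d : K) from had) _).eq).symm
    rcases hdM with ⟨h1, -⟩ | ⟨h1, h2, h3⟩
    · exact hdz h1
    · rcases hinv _ hvA hvv with h4 | h4 | h4 | h4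
      · exact hv1 h4
      · rw [h4] at hvd
        exact h1 hvd
      · rw [h4] at hvd
        exact h2 hvd
      · rw [h4] at hvd
        exact h3 hvd
  -- a Sylow 3-subgroup of `M0` containing `d`
  have hdp : IsPGroup 3 (Subgroup.zpowers (⟨d, hdM⟩ : M0)) := by
    rintro ⟨_, i, rfl⟩
    refine ⟨k, Subtype.ext ?_⟩
    have h1 : (⟨d, hdM⟩ : M0) ^ 3 ^ k = 1 := Subtype.ext hd3
    show ((⟨d, hdM⟩ : M0) ^ i) ^ 3 ^ k = 1
    rw [← zpow_natCast, ← zpow_mul, mul_comm, zpow_mul, zpow_natCast, h1, one_zpow]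
  obtain ⟨P, hP⟩ := hdp.exists_le_sylow
  have hdP : (⟨d, hdM⟩ : M0) ∈ (P : Subgroup M0) := hP (Subgroup.mem_zpowers _)
  set P' : Subgroup N := (P : Subgroup M0).map M0.subtype with hP'
  have hdP' : d ∈ P' := ⟨_, hdP, rfl⟩
  have hP'p : IsPGroup 3 P' := P.isPGroup'.map _
  have hfr : normalizer (P' : Set N) ⊔ M0 = ⊤ := P.normalizer_sup_eq_top
  have hsM : (⟨s, hsN⟩ : N) ∉ M0 := by
    intro h1
    have hsz : s * z = z * s := h.zc s hsR
    rcases h1 with ⟨-, h2⟩ | ⟨h2, -, -⟩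
    · rw [mul_inv_eq_iff_eq_mul] at hs
      have h3 : w * s = z * w * s := h2.symm.trans hs
      exact hf.ztnet (mul_right_cancel h3).symm
    · exact h2 hsz
  obtain ⟨m1, hm1N, hm1M⟩ : ∃ m1 ∈ normalizer (P' : Set N), m1 ∉ M0 := by
    by_contra hcon
    push Not at hcon
    apply hsM
    have h1 : normalizer (P' : Set N) ⊔ M0 ≤ M0 := sup_le hcon le_rfl
    rw [hfr] at h1
    exact h1 (mem_top _)
  obtain ⟨a2, b2, hb2, hab⟩ := Nat.exists_eq_pow_mul_and_not_dvd (orderOf_pos m1).ne' 2 (by norm_num)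
  set m2 : N := m1 ^ b2 with hm2
  have hm2N : m2 ∈ normalizer (P' : Set N) := pow_mem hm1N _
  have hm22 : m2 ^ 2 ^ a2 = 1 := by
    rw [hm2, ← pow_mul, mul_comm, ← hab, pow_orderOf_eq_one]
  have hm2M : m2 ∉ M0 := by
    intro h1
    apply hm1M
    refine mem_of_pow_mem_of_coprime (a := 2) (b := b2) ((Nat.Prime.coprime_iff_not_dvd Nat.prime_two).2 hb2) ?_ h1
    rw [pow_two]
    exact ev_sq hf (hPres _ m1.2)
  set q : N := m2 * m2 with hq
  have hqM : Ev z w (q : K) := ev_sq hf (hPres _ m2.2)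
  have hq2 : q ^ 2 ^ a2 = 1 := by
    rw [hq, ← pow_two, ← pow_mul, mul_comm, pow_mul, hm22, one_pow]
  have hqz : (q : K) * z = z * q := by
    have h2 : (q : K) ∈ centralizer ({z} : Set K) := by
      apply mem_of_pow_mem_of_coprime (a := 3) (b := 2 ^ a2) (Nat.Coprime.pow_right _ (by norm_num))
      · exact mem_centralizer_singleton_iff.2 (comm_cube hf (hPres _ q.2) hqM)
      · have h3 : (q : K) ^ 2 ^ a2 = 1 := congrArg Subtype.val hq2
        rw [h3]
        exact one_mem _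
    exact mem_centralizer_singleton_iff.1 h2
  have hqw : (q : K) * w = w * q := by
    rcases hqM with ⟨-, h2⟩ | ⟨h2, -⟩
    · exact h2
    · exact absurd hqz h2
  -- `q ∈ A`
  have hqA : (q : K) ∈ A := by
    set Nc : Subgroup K := N ⊓ centralizer ({z, w} : Set K) with hNc
    have hNcm : ∀ x, x ∈ Nc ↔ x ∈ N ∧ x * z = z * x ∧ x * w = w * x := by
      intro x
      rw [hNc, mem_inf, mem_centralizer_iff]
      simp only [Set.mem_insert_iff, Set.mem_singleton_iff, forall_eq_or_imp, forall_eq]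
      constructor
      · rintro ⟨h1, h2, h3⟩
        exact ⟨h1, h2.symm, h3.symm⟩
      · rintro ⟨h1, h2, h3⟩
        exact ⟨h1, h2.symm, h3.symm⟩
    have hANc : IsSyl A Nc := by
      have h1 : IsSyl R (R ⊔ Nc) := h.syl.mono le_sup_left le_top
      have h2 : IsSyl (R ⊓ Nc) Nc := by
        apply IsSyl.inf_normal (h.syl.mono hRN le_top) inf_le_left
        intro x hx
        apply mem_normalizer_of_conj_le
        intro y hy
        obtain ⟨hy1, hy2, hy3⟩ := (hNcm y).1 hy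
        have key : ∀ v : K, (v = z ∨ v = w ∨ v = z * w) → y * v = v * y := by
          rintro v (rfl | rfl | rfl)
          · exact hy2
          · exact hy3
          · rw [← mul_assoc, hy2, mul_assoc, hy3, mul_assoc]
        have hxi := hPres _ (inv_mem hx)
        rw [Pres, inv_inv] at hxi
        have k1 := key _ hxi.1
        have k2 := key _ hxi.2
        refine (hNcm _).2 ⟨mul_mem (mul_mem hx hy1) (inv_mem hx), ?_, ?_⟩
        · calc x * y * x⁻¹ * z = x * (y * (x⁻¹ * z * x)) * x⁻¹ := by group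
            _ = x * (x⁻¹ * z * x * y) * x⁻¹ := by rw [k1]
            _ = _ := by group
        · calc x * y * x⁻¹ * w = x * (y * (x⁻¹ * w * x)) * x⁻¹ := by group
            _ = x * (x⁻¹ * w * x * y) * x⁻¹ := by rw [k2]
            _ = _ := by group
      have h3 : R ⊓ Nc = A := by
        ext x
        rw [mem_inf, hNcm, hmem]
        constructor
        · rintro ⟨h4, -, -, h5⟩
          exact ⟨h4, h5⟩
        · rintro ⟨h4, h5⟩
          exact ⟨h4, hRN h4, h.zc x h4, h5⟩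
      rwa [h3] at h2
    have hQp : IsPGroup 2 (Subgroup.zpowers (q : K)) := by
      rintro ⟨_, i, rfl⟩
      refine ⟨a2, Subtype.ext ?_⟩
      have h1 : (q : K) ^ 2 ^ a2 = 1 := congrArg Subtype.val hq2
      show ((q : K) ^ i) ^ 2 ^ a2 = 1
      rw [← zpow_natCast, ← zpow_mul, mul_comm, zpow_mul, zpow_natCast, h1, one_zpow]
    have hqNc : (q : K) ∈ Nc := (hNcm _).2 ⟨q.2, hqz, hqw⟩
    obtain ⟨c, hc, hcq⟩ := hANc.exists_conj hQp (by rwa [Subgroup.zpowers_le])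
    have h1 := hcq _ (Subgroup.mem_zpowers _)
    have h2 := conj_inv_mem_of_mem_normalizer (mem_inf.1 hc).1 h1
    have h3 : c⁻¹ * (c * (q : K) * c⁻¹) * c = q := by group
    rwa [h3] at h2
  -- `q` commutes with `d`
  have hqd : (q : K) * d = d * q := by
    have h1 : q * d * q⁻¹ * d⁻¹ ∈ P' := by
      have hqN : q ∈ normalizer (P' : Set N) := mul_mem hm2N hm2N
      exact mul_mem (conj_mem_of_mem_normalizer hqN hdP') (inv_mem hdP')
    have h2 : ((q * d * q⁻¹ * d⁻¹ : N) : K) ∈ A := by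
      have h3 : ((q * d * q⁻¹ * d⁻¹ : N) : K) = (q : K) * ((d : K) * (q : K)⁻¹ * (d : K)⁻¹) := by
        simp only [Subgroup.coe_mul, Subgroup.coe_inv, mul_assoc]
      rw [h3]
      exact mul_mem hqA (conj_mem_of_mem_normalizer d.2 (inv_mem hqA))
    obtain ⟨i, hi⟩ := hP'p ⟨_, h1⟩
    obtain ⟨j, hj⟩ := hAp ⟨_, h2⟩
    have hi' : ((q * d * q⁻¹ * d⁻¹ : N)) ^ 3 ^ i = 1 := congrArg Subtype.val hi
    have hj' : ((q * d * q⁻¹ * d⁻¹ : N)) ^ 2 ^ j = 1 := by
      apply Subtype.ext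
      rw [Subgroup.coe_pow]
      exact congrArg Subtype.val hj
    have h4 : q * d * q⁻¹ * d⁻¹ = 1 := eq_one_of_pow (Nat.Coprime.pow _ _ (by norm_num)) hi' hj'
    rw [mul_inv_eq_one, mul_inv_eq_iff_eq_mul] at h4
    exact congrArg Subtype.val h4
  have hq1 : (q : K) = 1 := hCd _ hqA hqd
  have hm2p : IsPGroup 2 (Subgroup.zpowers (m2 : K)) := by
    rintro ⟨_, i, rfl⟩
    refine ⟨a2, Subtype.ext ?_⟩
    have h1 : (m2 : K) ^ 2 ^ a2 = 1 := congrArg Subtype.val hm22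
    show ((m2 : K) ^ i) ^ 2 ^ a2 = 1
    rw [← zpow_natCast, ← zpow_mul, mul_comm, zpow_mul, zpow_natCast, h1, one_zpow]
  obtain ⟨c, hc, hcm⟩ := (h.syl.mono hRN le_top).exists_conj hm2p (by
    rw [Subgroup.zpowers_le]
    exact m2.2)
  have ht := hcm _ (Subgroup.mem_zpowers _)
  refine ⟨c * m2 * c⁻¹, ht, ?_, ?_⟩
  · have h1 : (m2 : K) * m2 = 1 := hq1
    calc c * (m2 : K) * c⁻¹ * (c * m2 * c⁻¹) = c * (m2 * m2) * c⁻¹ := by group
      _ = 1 := by rw [h1]; group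
  · intro h1
    apply hm2M
    have h2 : Ev z w (c * (m2 : K) * c⁻¹) := Or.inl ⟨h.zc _ ht, h1⟩
    have h3 := ev_conj hf (g := c⁻¹) (by rw [inv_inv]; exact hPres c hc) h2
    have h4 : c⁻¹ * (c * (m2 : K) * c⁻¹) * c⁻¹⁻¹ = m2 := by group
    rwa [h4] at h3

/-- **Main result**: if `z` is not weakly closed in `R`, then `R` is dihedral or quasi-dihedral. -/
theorem Hyp.main (h : Hyp K R X z) {w₀ : K} (hw₀ : w₀ ∈ R) (hwz₀ : w₀ ≠ z)
    (hconj₀ : ∃ g : K, g * z * g⁻¹ = w₀) :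
    (∃ m : ℕ, 2 ≤ m ∧ Nonempty (R ≃* DihedralGroup m)) ∨ Cfsg.IsQuasiDihedral R := by
  have : Fact (Nat.Prime 2) := ⟨Nat.prime_two⟩
  by_contra hcon
  have hsq : ∀ {w : K}, w ∈ R → w ≠ z → (∃ g : K, g * z * g⁻¹ = w) → ∃ y ∈ R, y * y = w := by
    intro w hw hwz hconj
    rcases h.four_or_sq hw hwz hconj with h1 | h1
    · exact absurd (h.concl_of_four hw hwz hconj h1) hcon
    · exact h1
  have hf₀ := h.four hw₀ hwz₀ hconj₀
  have hfour : ∃ E : Subgroup R, IsKleinFour E := by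
    have hf' : Four (⟨z, h.zR⟩ : R) ⟨w₀, hw₀⟩ :=
      { zz := Subtype.ext hf₀.zz
        tt := Subtype.ext hf₀.tt
        comm := Subtype.ext hf₀.comm
        z1 := fun h1 => hf₀.z1 (congrArg Subtype.val h1)
        t1 := fun h1 => hf₀.t1 (congrArg Subtype.val h1)
        ne := fun h1 => hf₀.ne (congrArg Subtype.val h1) }
    refine ⟨fourGroup hf', ⟨card_fourGroup hf', ?_⟩⟩
    apply Nat.dvd_antisymm
    · apply Monoid.exponent_dvd_of_forall_pow_eq_one
      rintro ⟨a, ha⟩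
      apply Subtype.ext
      show a ^ 2 = 1
      rw [pow_two]
      rcases (mem_fourGroup hf').1 ha with rfl | rfl | rfl | rfl
      · exact mul_one 1
      · exact hf'.zz
      · exact hf'.tt
      · exact hf'.ztzt
    · have h1 : orderOf (⟨⟨z, h.zR⟩, (mem_fourGroup hf').2 (Or.inr (Or.inl rfl))⟩ : fourGroup hf') = 2 := by
        apply orderOf_eq_prime
        · apply Subtype.ext
          rw [pow_two]
          exact hf'.zz
        · intro h2
          exact hf'.z1 (congrArg Subtype.val h2)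
      rw [← h1]
      exact Monoid.order_dvd_exponent _
  obtain ⟨E, hEn, hE⟩ : ∃ E : Subgroup R, E.Normal ∧ IsKleinFour E := by
    by_contra hno
    push Not at hno
    exact hcon (Cfsg.Agent.TwoFusion.NoNormalFour.dihedral_or_qd_of_no_normal_four h.syl.two hfour hno)
  obtain ⟨z', u, hz'E, huE, hz'c, hz'1, hu1, huz', -, hconju⟩ :=
    Cfsg.Agent.Involutions.RankThree.four_desc h.syl.two E hE.card_four (fun v hv => by
      have h1 := hE.exponent_two
      have h2 := Monoid.pow_exponent_eq_one (⟨v, hv⟩ : E)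
      rw [h1] at h2
      exact congrArg Subtype.val h2)
  have hE2 : ∀ v ∈ E, v * v = 1 := by
    intro v hv
    have h1 := hE.exponent_two
    have h2 := Monoid.pow_exponent_eq_one (⟨v, hv⟩ : E)
    rw [h1, pow_two] at h2
    exact congrArg Subtype.val h2
  have hz'z : (z' : K) = z := by
    rw [Subgroup.mem_center_iff] at hz'c
    rcases h.uz z' z'.2 (congrArg Subtype.val (hE2 _ hz'E)) (fun r hr => congrArg Subtype.val (hz'c ⟨r, hr⟩))
      with h1 | h1
    · exact absurd (Subtype.ext h1) hz'1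
    · exact h1
  have huR : (u : K) ∈ R := u.2
  have hu2 : (u : K) * u = 1 := congrArg Subtype.val (hE2 _ huE)
  have hu1' : (u : K) ≠ 1 := fun h1 => hu1 (Subtype.ext h1)
  have huz : (u : K) ≠ z := fun h1 => huz' (Subtype.ext (h1.trans hz'z.symm))
  have huc : ∀ r ∈ R, r * (u : K) * r⁻¹ = u ∨ r * (u : K) * r⁻¹ = z * u := by
    intro r hr
    rcases hconju ⟨r, hr⟩ with h1 | h1
    · exact Or.inl (congrArg Subtype.val h1)
    · right
      have h2 := congrArg Subtype.val h1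
      rw [← hz'z]
      exact h2
  have key : ∀ {w : K}, w ∈ R → w ≠ z → (∃ g : K, g * z * g⁻¹ = w) →
      ∀ r ∈ R, r * w * r⁻¹ = w ∨ r * w * r⁻¹ = z * w := by
    intro w hw hwz hconj
    have hf := h.four hw hwz hconj
    obtain ⟨y, hy, hyw⟩ := hsq hw hwz hconj
    have h1 : (u : K) * w = w * u := by
      rw [← hyw]
      exact (sq_comm_of (u : K) huc h.zc h.z2 y hy).symm
    rcases h.invol hf huR h1 hu2 with h2 | h2 | h2 | h2
    · exact absurd h2 hu1'
    · exact absurd h2 huz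
    · rw [← h2]
      exact huc
    · have h3 : w = z * (u : K) := by rw [h2, hf.zzt]
      intro r hr
      have h4 : r * w * r⁻¹ = z * (r * u * r⁻¹) := by
        rw [h3, Cfsg.Agent.TwoFusion.RankTwoBasic.conj_mul, h.zc r hr, mul_inv_cancel_right]
      rcases huc r hr with h5 | h5
      · left
        rw [h4, h5, h3]
      · right
        rw [h4, h5, h3]
  obtain ⟨t, htR, ht2, htw⟩ := h.exists_involution hw₀ hwz₀ hconj₀ (key hw₀ hwz₀ hconj₀)
  obtain ⟨⟨s, hsR, hsN, hs⟩, -⟩ := h.exists_swaps hw₀ hwz₀ hconj₀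
  set A : Subgroup K := R ⊓ centralizer ({w₀} : Set K) with hA
  have hmem : ∀ a, a ∈ A ↔ a ∈ R ∧ a * w₀ = w₀ * a := by
    intro a
    rw [hA, mem_inf, mem_centralizer_singleton_iff]
  have hidx : A.relIndex R = 2 := by
    rw [Subgroup.relIndex_eq_two_iff]
    refine ⟨s, hsR, fun b hb => ?_⟩
    have h1 : b * s * w₀ * (b * s)⁻¹ = z * (b * w₀ * b⁻¹) := by
      rw [conj_conj, hs, Cfsg.Agent.TwoFusion.RankTwoBasic.conj_mul, h.zc b hb, mul_inv_cancel_right]
    rcases key hw₀ hwz₀ hconj₀ b hb with h2 | h2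
    · right
      refine ⟨(hmem b).2 ⟨hb, mul_inv_eq_iff_eq_mul.1 h2⟩, fun h3 => ?_⟩
      have h4 := ((hmem _).1 h3).2
      rw [← mul_inv_eq_iff_eq_mul, h1, h2] at h4
      exact hf₀.ztnet h4
    · left
      refine ⟨(hmem _).2 ⟨mul_mem hb hsR, ?_⟩, fun h3 => ?_⟩
      · rw [← mul_inv_eq_iff_eq_mul, h1, h2, hf₀.zzt]
      · have h4 := ((hmem _).1 h3).2
        rw [← mul_inv_eq_iff_eq_mul, h2] at h4
        exact hf₀.ztnet h4
  obtain ⟨P, hP⟩ := h.syl.exists_sylow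
  obtain ⟨g, hg⟩ := Cfsg.Agent.Transfer.ThompsonTransfer.exists_conj_mem_of_pResidual_eq_top h.res P A
    (by rw [hP]; exact inf_le_left) (by rw [hP]; exact hidx) t (by rw [pow_two]; exact ht2)
  -- `t` is conjugate to `z`
  have ht1 : t ≠ 1 := by
    rintro rfl
    exact htw (by rw [one_mul, mul_one])
  have htz : ∃ g : K, g * z * g⁻¹ = t := by
    obtain ⟨hg1, hg2⟩ := (hmem _).1 hg
    have hcw : ∀ {x y : K}, (∃ g : K, g * x * g⁻¹ = y) → (∃ g : K, g * z * g⁻¹ = x) → ∃ g : K, g * z * g⁻¹ = y := by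
      rintro x y ⟨a, rfl⟩ ⟨b, rfl⟩
      exact ⟨a * b, conj_conj a b z⟩
    apply hcw (x := g * t * g⁻¹) ⟨g⁻¹, by group⟩
    rcases h.invol hf₀ hg1 hg2 (by
        calc g * t * g⁻¹ * (g * t * g⁻¹) = g * (t * t) * g⁻¹ := by group
          _ = 1 := by rw [ht2]; group) with h1 | h1 | h1 | h1
    · exfalso
      rw [mul_inv_eq_one] at h1
      exact ht1 (mul_eq_left.1 h1)
    · rw [h1]
      exact ⟨1, by group⟩
    · rw [h1]
      exact hconj₀
    · rw [h1]
      exact hcw ⟨s, hs⟩ hconj₀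
  have htz' : t ≠ z := by
    rintro rfl
    exact htw (h.zc w₀ hw₀).symm
  obtain ⟨y, hy, hyt⟩ := hsq htR htz' htz
  apply htw
  rw [← hyt, ← mul_inv_eq_iff_eq_mul, conj_conj]
  have h1 := key hw₀ hwz₀ hconj₀ y hy
  rcases h1 with h2 | h2
  · rw [h2, h2]
  · rw [h2, Cfsg.Agent.TwoFusion.RankTwoBasic.conj_mul, h2, h.zc y hy, mul_inv_cancel_right, hf₀.zzt]

end Cfsg.Agent.H444.RankTwoMain
end

-- part: H444/ZNRankTwo
section
/-!
# ZN-groups: the case of 2-rank at most two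
-/

set_option autoImplicit false
set_option linter.unusedSectionVars false

namespace Cfsg.Agent.H444.ZNSit

open Subgroup Cfsg Cfsg.Agent.StdEven.Syl Cfsg.Agent.TwoFusion.RankTwoBasic
open Cfsg.Agent.H444.RankTwoMain.Hyp (fourGroup mem_fourGroup card_fourGroup)

variable {G : Type*} [Group G] [Finite G] {S H : Subgroup G}

/-- `x ∈ Ω₁(Z(S))` -/
def InZ (S : Subgroup G) (x : G) : Prop := x ∈ S ∧ x * x = 1 ∧ ∀ s ∈ S, s * x = x * s

theorem InZ.one : InZ S 1 := ⟨one_mem _, one_mul _, fun s _ => by rw [one_mul, mul_one]⟩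

theorem InZ.mul {x y : G} (hx : InZ S x) (hy : InZ S y) : InZ S (x * y) := by
  refine ⟨mul_mem hx.1 hy.1, ?_, fun s hs => ?_⟩
  · calc x * y * (x * y) = x * (y * x) * y := by group
      _ = x * (x * y) * y := by rw [hx.2.2 y hy.1]
      _ = (x * x) * (y * y) := by group
      _ = 1 := by rw [hx.2.1, hy.2.1, mul_one]
  · rw [← mul_assoc, hx.2.2 s hs, mul_assoc, hy.2.2 s hs, mul_assoc]

theorem InZ.comm {x y : G} (hx : InZ S x) (hy : InZ S y) : x * y = y * x := hy.2.2 x hx.1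

/-- `Ω₁(Z(S))` -/
def zSub (S : Subgroup G) : Subgroup G where
  carrier := {x | InZ S x}
  one_mem' := InZ.one
  mul_mem' := InZ.mul
  inv_mem' := fun {x} hx => by
    have h1 : x⁻¹ = x := inv_eq_of_mul_eq_one_right hx.2.1
    rw [h1]
    exact hx

theorem mem_zSub {x : G} : x ∈ zSub S ↔ InZ S x := Iff.rfl

theorem zSub_isPGroup (S : Subgroup G) : IsPGroup 2 (zSub S) := fun x => ⟨1, by
  rw [pow_one]
  apply Subtype.ext
  rw [pow_two]
  exact x.2.2.1⟩

theorem isPGroup_zpowers {x : G} (hx : x * x = 1) : IsPGroup 2 (Subgroup.zpowers x) := by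
  rintro ⟨_, i, rfl⟩
  refine ⟨1, Subtype.ext ?_⟩
  show (x ^ i) ^ 2 ^ 1 = 1
  rw [pow_one, ← zpow_natCast, ← zpow_mul, mul_comm, zpow_mul, zpow_natCast, pow_two, hx, one_zpow]

/-- conjugates of involutions -/
theorem conj_sq {x : G} (g : G) (hx : x * x = 1) : g * x * g⁻¹ * (g * x * g⁻¹) = 1 := by
  calc g * x * g⁻¹ * (g * x * g⁻¹) = g * (x * x) * g⁻¹ := by group
    _ = 1 := by rw [hx]; group

theorem conj_ne_one {x : G} (g : G) (hx : x ≠ 1) : g * x * g⁻¹ ≠ 1 := by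
  intro h
  rw [mul_inv_eq_one] at h
  exact hx (mul_eq_left.1 h)

/-- The rank hypothesis in the ambient group. -/
theorem rk (hr : PRankLE 2 2 H) {a b c : G} (haH : a ∈ H) (hbH : b ∈ H) (hcH : c ∈ H)
    (ha : a * a = 1) (hb : b * b = 1) (hc : c * c = 1) (hab : a * b = b * a)
    (hac : a * c = c * a) (hbc : b * c = c * b) (ha1 : a ≠ 1) (hb1 : b ≠ 1) (hne : a ≠ b) :
    c = 1 ∨ c = a ∨ c = b ∨ c = a * b := by
  have h1 := mem_of_commute (G := H) hr (a := ⟨a, haH⟩) (b := ⟨b, hbH⟩) (c := ⟨c, hcH⟩)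
    (Subtype.ext ha) (Subtype.ext hb) (Subtype.ext hc) (Subtype.ext hab) (Subtype.ext hac) (Subtype.ext hbc)
    (fun h => ha1 (congrArg Subtype.val h)) (fun h => hb1 (congrArg Subtype.val h))
    (fun h => hne (congrArg Subtype.val h))
  rcases h1 with h1 | h1 | h1 | h1
  · exact Or.inl (congrArg Subtype.val h1)
  · exact Or.inr (Or.inl (congrArg Subtype.val h1))
  · exact Or.inr (Or.inr (Or.inl (congrArg Subtype.val h1)))
  · exact Or.inr (Or.inr (Or.inr (congrArg Subtype.val h1)))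

namespace Sit

theorem R_ne_bot (h : Sit G S H) : S ⊓ H ≠ ⊥ := by
  have : Fact (Nat.Prime 2) := ⟨Nat.prime_two⟩
  intro hbot
  have hHn : H.Normal := ⟨fun x hx g => h.Hn g x hx⟩
  have hodd : Odd (Nat.card H) := by
    by_contra hcon
    rw [Nat.not_odd_iff_even, even_iff_two_dvd] at hcon
    obtain ⟨x, hx⟩ := exists_prime_orderOf_dvd_card' 2 hcon
    have hx2 : (x : G) * x = 1 := by
      have h1 : x ^ 2 = 1 := by rw [← hx, pow_orderOf_eq_one]
      rw [pow_two] at h1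
      exact congrArg Subtype.val h1
    have hx1 : (x : G) ≠ 1 := by
      intro h1
      have h2 : x = 1 := Subtype.ext h1
      rw [h2, orderOf_one] at hx
      norm_num at hx
    obtain ⟨n, -, hn⟩ := h.sylH.exists_conj (isPGroup_zpowers hx2) (by
      rw [Subgroup.zpowers_le]
      exact x.2)
    have h1 := hn _ (Subgroup.mem_zpowers _)
    rw [hbot, mem_bot] at h1
    exact conj_ne_one n hx1 h1
  have hH : H = ⊥ := h.O1 H hHn hodd
  have hS : S = ⊤ := by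
    rw [eq_top_iff]
    intro g _
    obtain ⟨k, hk, s, hs, rfl⟩ := h.HS g
    rw [hH, mem_bot] at hk
    rw [hk, one_mul]
    exact hs
  have h1 : (⊤ : Subgroup G) = ⊥ := h.O2 ⊤ inferInstance (hS ▸ h.syl.two)
  have h2 : Nat.card G = 1 := by
    rw [← Subgroup.card_top, h1, Subgroup.card_bot]
  have h3 := h.even
  rw [h2] at h3
  exact absurd h3 (by decide)

/-- There is an involution in `Z(S) ∩ H`. -/
theorem exists_z (h : Sit G S H) : ∃ z, InZ S z ∧ z ∈ H ∧ z ≠ 1 := by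
  have : Fact (Nat.Prime 2) := ⟨Nat.prime_two⟩
  have hn : ((S ⊓ H).subgroupOf S).Normal := ⟨fun x hx s => by
    rw [mem_subgroupOf, mem_inf] at hx ⊢
    exact ⟨mul_mem (mul_mem s.2 hx.1) (inv_mem s.2), h.Hn s _ hx.2⟩⟩
  have hb : (S ⊓ H).subgroupOf S ≠ ⊥ := by
    intro hb
    apply h.R_ne_bot
    rw [Subgroup.subgroupOf_eq_bot] at hb
    have h1 := hb.le_bot
    rw [eq_bot_iff]
    intro x hx
    exact h1 (mem_inf.2 ⟨hx, (mem_inf.1 hx).1⟩)
  obtain ⟨z, hzU, hzc, hzo⟩ := Cfsg.Agent.Involutions.NormalFour.exists_mem_center_of_normal (p := 2) h.syl.two _ hb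
  rw [mem_subgroupOf, mem_inf] at hzU
  rw [Subgroup.mem_center_iff] at hzc
  refine ⟨z, ⟨z.2, ?_, fun s hs => congrArg Subtype.val (hzc ⟨s, hs⟩)⟩, hzU.2, ?_⟩
  · have h1 : z ^ 2 = 1 := by rw [← hzo, pow_orderOf_eq_one]
    rw [pow_two] at h1
    exact congrArg Subtype.val h1
  · intro h1
    have h2 : z = 1 := Subtype.ext h1
    rw [h2, orderOf_one] at hzo
    norm_num at hzo

/-- The `Z*`-theorem. -/
theorem zstar (h : Sit G S H) {t : G} (ht : InZ S t) (htH : t ∉ H)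
    (hiso : ∀ g : G, g * t * g⁻¹ ∈ S → g * t * g⁻¹ = t) : False := by
  obtain ⟨P, hP⟩ := h.syl.exists_sylow
  have ht1 : t ≠ 1 := by
    rintro rfl
    exact htH (one_mem _)
  obtain ⟨N, hN, hNo, hNc⟩ := Cfsg.Agent.S0215.result P t (orderOf_eq_prime (by rw [pow_two]; exact ht.2.1) ht1)
    (by rw [← SetLike.mem_coe, ← Sylow.coe_coe, SetLike.mem_coe, hP]; exact ht.1)
    (fun g hg => hiso g (by rw [← hP]; exact hg))
  have hN1 := h.O1 N hN hNo
  have hc : ∀ g, g * t = t * g := by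
    intro g
    have h1 := hNc g
    rw [hN1, mem_bot, mul_inv_eq_one, mul_inv_eq_iff_eq_mul] at h1
    exact h1.symm
  have hzn : (Subgroup.zpowers t).Normal := ⟨fun x hx g => by
    obtain ⟨i, rfl⟩ := hx
    have h1 : g * t ^ i * g⁻¹ = t ^ i := by
      rw [((Commute.zpow_right (show Commute g t from hc g) i).eq), mul_inv_cancel_right]
    exact ⟨i, h1.symm⟩⟩
  have h1 := h.O2 _ hzn (isPGroup_zpowers ht.2.1)
  rw [Subgroup.zpowers_eq_bot] at h1
  exact ht1 h1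

/-- `fourGroup` normalizer: it is enough to preserve the involutions of `R` -/
theorem mem_norm_four {z y : G} (hf : Four z y) {T : Subgroup G} (hT : ∀ x ∈ T, x * x = 1 → x ∈ fourGroup hf)
    (hV : fourGroup hf ≤ T) {g : G} (hg : g ∈ normalizer (T : Set G)) :
    g ∈ normalizer (fourGroup hf : Set G) := by
  apply mem_normalizer_of_conj_le
  intro x hx
  apply hT _ (conj_mem_of_mem_normalizer hg (hV hx))
  apply conj_sq
  rcases (mem_fourGroup hf).1 hx with rfl | rfl | rfl | rfl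
  · exact one_mul _
  · exact hf.zz
  · exact hf.tt
  · exact hf.ztzt

theorem sq_of_mem_four {z y : G} (hf : Four z y) {x : G} (hx : x ∈ fourGroup hf) : x * x = 1 := by
  rcases (mem_fourGroup hf).1 hx with rfl | rfl | rfl | rfl
  · exact one_mul _
  · exact hf.zz
  · exact hf.tt
  · exact hf.ztzt

theorem isPGroup_four {z y : G} (hf : Four z y) : IsPGroup 2 (fourGroup hf) := fun x => ⟨1, by
  rw [pow_one]
  apply Subtype.ext
  rw [pow_two]
  exact sq_of_mem_four hf x.2⟩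

theorem sol_four (h : Sit G S H) {z y : G} (hf : Four z y) :
    Group.IsSolvable (normalizer (fourGroup hf : Set G)) := by
  classical
  set V := fourGroup hf with hV
  have hC : Group.IsSolvable (centralizer (V : Set G)) := isSolvable_of_le (by
    intro g hg
    rw [mem_centralizer_singleton_iff]
    exact (mem_centralizer_iff.1 hg z ((mem_fourGroup hf).2 (Or.inr (Or.inl rfl)))).symm) (h.solc z hf.zz hf.z1)
  have hM : Group.IsSolvable (MulAut V) := by
    have h1 : Nat.card (MulAut V) ≤ Nat.card (Equiv.Perm V) :=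
      Nat.card_le_card_of_injective (MulAut.toPerm V) (fun a b hab => by
        ext x
        have h2 := congrArg (fun f : Equiv.Perm V => f x) hab
        exact congrArg Subtype.val h2)
    have h2 : Nat.card (Equiv.Perm V) = 24 := by
      rw [Nat.card_perm, card_fourGroup hf]
      rfl
    exact Cfsg.Agent.BpAlt.solvable_of_lt _ (MulAut V) rfl (by omega)
  refine Group.isSolvable_of_ker_le_range (G' := centralizer (V : Set G))
    (Subgroup.inclusion (Subgroup.centralizer_le_normalizer (V : Set G))) V.normalizerMonoidHom ?_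
  rw [Subgroup.normalizerMonoidHom_ker]
  intro x hx
  exact ⟨⟨x, mem_subgroupOf.1 hx⟩, rfl⟩

/-- If `Ω₁(Z(S)) ∩ H` has order 4, then `Ω₁(Z(S)) ≤ H`. -/
theorem four_case (h : Sit G S H) (hr : PRankLE 2 2 H) {z y : G} (hf : Four z y) (hz : InZ S z) (hy : InZ S y)
    (hzH : z ∈ H) (hyH : y ∈ H) : (∀ x ∈ S ⊓ H, x * x = 1 → x ∈ fourGroup hf) ∧ ∀ t, InZ S t → t ∈ H := by
  have hT : ∀ x ∈ S ⊓ H, x * x = 1 → x ∈ fourGroup hf := fun x hx hx2 =>
    (mem_fourGroup hf).2 (rk hr hzH hyH (mem_inf.1 hx).2 hf.zz hf.tt hx2 hf.comm.symm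
      (hz.2.2 x (mem_inf.1 hx).1).symm (hy.2.2 x (mem_inf.1 hx).1).symm hf.z1 hf.t1 hf.ne)
  have hVZ : ∀ x ∈ fourGroup hf, InZ S x := by
    intro x hx
    rcases (mem_fourGroup hf).1 hx with rfl | rfl | rfl | rfl
    · exact InZ.one
    · exact hz
    · exact hy
    · exact hz.mul hy
  have hVH : ∀ x ∈ fourGroup hf, x ∈ H := by
    intro x hx
    rcases (mem_fourGroup hf).1 hx with rfl | rfl | rfl | rfl
    · exact one_mem _
    · exact hzH
    · exact hyH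
    · exact mul_mem hzH hyH
  refine ⟨hT, fun t ht => ?_⟩
  by_contra htH
  set V := fourGroup hf with hV
  set C : Subgroup G := normalizer (V : Set G) with hC
  have hCs : Group.IsSolvable C := h.sol_four hf
  have hSC : S ≤ C := by
    intro s hs
    apply mem_normalizer_of_conj_le
    intro x hx
    rw [(hVZ x hx).2.2 s hs, mul_inv_cancel_right]
    exact hx
  have hSC' : S ⊓ C = S := inf_eq_left.2 hSC
  obtain ⟨v, hvH, hvS, hvC, hv2, -, hvm⟩ := h.central_mod C hCs (by rw [hSC']; exact h.syl.mono hSC le_top)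
    ht.1 (hSC ht.1) ht.2.1 ht.2.2
  have hvV : v ∈ V := hT v (mem_inf.2 ⟨hvS, hvH⟩) hv2
  have ht0 : InZ S (t * v) := ht.mul (hVZ v hvV)
  have ht0H : t * v ∉ H := fun h1 => htH (by
    have h2 := mul_mem h1 (inv_mem hvH)
    rwa [mul_inv_cancel_right] at h2)
  apply h.zstar ht0 ht0H
  intro g hg
  set t₀ := t * v with ht₀
  set s' := g * t₀ * g⁻¹ with hs'
  -- `V` is conjugate in `C(s')` into `gSg⁻¹`
  have hSg : S.map (MulAut.conj g).toMonoidHom ≤ centralizer ({s'} : Set G) := by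
    rintro _ ⟨x, hx, rfl⟩
    rw [mem_centralizer_singleton_iff]
    show g * x * g⁻¹ * s' = s' * (g * x * g⁻¹)
    calc g * x * g⁻¹ * s' = g * (x * t₀) * g⁻¹ := by rw [hs']; group
      _ = g * (t₀ * x) * g⁻¹ := by rw [ht0.2.2 x hx]
      _ = _ := by rw [hs']; group
  have hsylg : IsSyl (S.map (MulAut.conj g).toMonoidHom) (centralizer ({s'} : Set G)) :=
    (h.syl.conj (g := g) ((⊤ : Subgroup G).le_normalizer (mem_top g))).mono hSg le_top
  have hVc : V ≤ centralizer ({s'} : Set G) := by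
    intro x hx
    rw [mem_centralizer_singleton_iff]
    exact ((hVZ x hx).2.2 s' hg).symm
  obtain ⟨c, hc, hcV⟩ := hsylg.exists_conj (isPGroup_four hf) hVc
  rw [mem_centralizer_singleton_iff] at hc
  have hn : g⁻¹ * c ∈ C := by
    apply mem_normalizer_of_conj_le
    intro x hx
    have h1 := mem_map_conj.1 (hcV x hx)
    have h2 : g⁻¹ * (c * x * c⁻¹) * g = g⁻¹ * c * x * (g⁻¹ * c)⁻¹ := by group
    rw [h2] at h1
    exact hT _ (mem_inf.2 ⟨h1, h.Hn _ _ (hVH x hx)⟩) (conj_sq _ (sq_of_mem_four hf hx))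
  have h1 := hvm _ (inv_mem hn)
  have h2 : (g⁻¹ * c)⁻¹ * t₀ * (g⁻¹ * c)⁻¹⁻¹ = s' := by
    have h3 : c⁻¹ * s' * c = s' := by rw [mul_assoc, ← hc, inv_mul_cancel_left]
    calc (g⁻¹ * c)⁻¹ * t₀ * (g⁻¹ * c)⁻¹⁻¹ = c⁻¹ * (g * t₀ * g⁻¹) * c := by group
      _ = s' := h3
  rw [h2] at h1
  have h3 := eq_one_of_mem h.syl.two (oc_odd C) (mul_mem hg (inv_mem ht0.1)) h1
  exact mul_inv_eq_one.1 h3

/-! ### one involution in `Z(S) ∩ H` -/

theorem S_le_centralizer {z : G} (hz : InZ S z) : S ≤ centralizer ({z} : Set G) := fun s hs =>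
  mem_centralizer_singleton_iff.2 (hz.2.2 s hs)

/-- `Z(S)` is central in `C(z)` modulo `O(C(z))`. -/
theorem zmod (h : Sit G S H) {z : G} (hz : InZ S z) (hz1 : z ≠ 1)
    (hu : ∀ x, InZ S x → x ∈ H → x = 1 ∨ x = z) {t : G} (ht : InZ S t) {c : G} (hc : c * z = z * c) :
    c * t * c⁻¹ * t⁻¹ ∈ oc (centralizer ({z} : Set G)) := by
  have hSC := S_le_centralizer hz
  have hSC' : S ⊓ centralizer ({z} : Set G) = S := inf_eq_left.2 hSC
  obtain ⟨v, hvH, hvS, hvC, hv2, hvc, hvm⟩ := h.central_mod (centralizer ({z} : Set G))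
    (h.sol_centralizer hz.2.1 hz1) (by rw [hSC']; exact h.syl.mono hSC le_top) ht.1 (hSC ht.1) ht.2.1 ht.2.2
  have h1 := hvm c (mem_centralizer_singleton_iff.2 hc)
  have hc' : z * c⁻¹ * z⁻¹ = c⁻¹ := by
    rw [mul_inv_eq_iff_eq_mul, eq_inv_mul_iff_mul_eq, ← mul_assoc, hc, mul_inv_cancel_right]
  rcases hu v ⟨hvS, hv2, fun s hs => hvc s hs (hSC hs)⟩ hvH with h2 | h2
  · rwa [h2, mul_one] at h1
  · rw [h2] at h1
    have h3 : c * (t * z) * c⁻¹ * (t * z)⁻¹ = c * t * (z * c⁻¹ * z⁻¹) * t⁻¹ := by group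
    rwa [h3, hc'] at h1

/-- Frattini argument: `C(z) = O(C(z)) (C(Z(S)) ∩ N(S))`. -/
theorem Zprime (h : Sit G S H) {z : G} (hz : InZ S z) (hz1 : z ≠ 1)
    (hu : ∀ x, InZ S x → x ∈ H → x = 1 ∨ x = z) {c : G} (hc : c * z = z * c) :
    ∃ x ∈ oc (centralizer ({z} : Set G)), x * c ∈ normalizer (S : Set G) ∧
      ∀ t, InZ S t → x * c * t = t * (x * c) := by
  set C := centralizer ({z} : Set G) with hC
  set X := oc C with hX
  have hSC := S_le_centralizer hz
  have hcC : c ∈ C := mem_centralizer_singleton_iff.2 hc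
  have hZX : zSub S ≤ normalizer (X : Set G) := by
    intro t ht
    apply mem_normalizer_of_conj_le
    intro x hx
    exact conj_mem_oc' (hSC ht.1) hx
  set W : Subgroup G := zSub S ⊔ X with hW
  have hWm : ∀ w, w ∈ W ↔ ∃ t, InZ S t ∧ ∃ x ∈ X, t * x = w := by
    intro w
    rw [← SetLike.mem_coe, hW, Subgroup.coe_mul_of_left_le_normalizer_right _ _ hZX, Set.mem_mul]
    rfl
  have hsyl : IsSyl (zSub S) W := by
    refine ⟨le_sup_left, zSub_isPGroup S, fun Q hQ hQW hle => le_antisymm ?_ hle⟩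
    intro q hq
    obtain ⟨t, ht, x, hx, rfl⟩ := (hWm q).1 (hQW hq)
    have h1 : x ∈ Q := by
      have h2 := mul_mem (inv_mem (hle (mem_zSub.2 ht))) hq
      rwa [inv_mul_cancel_left] at h2
    have h2 := eq_one_of_mem hQ (oc_odd C) h1 hx
    rw [h2, mul_one]
    exact ht
  have hle : (zSub S).map (MulAut.conj c).toMonoidHom ≤ W := by
    rintro _ ⟨t, ht, rfl⟩
    have h1 := h.zmod hz hz1 hu ht hc
    have h2 : (MulAut.conj c).toMonoidHom t = t * (t⁻¹ * (c * t * c⁻¹ * t⁻¹) * t⁻¹⁻¹) := by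
      show c * t * c⁻¹ = _
      group
    rw [h2]
    exact mul_mem (mem_sup_left ht) (mem_sup_right (conj_mem_oc' (inv_mem (hSC ht.1)) h1))
  obtain ⟨w, hw, hwc⟩ := hsyl.exists_conj (isPGroup_map (zSub_isPGroup S) c) hle
  obtain ⟨t₁, ht₁, x, hx, rfl⟩ := (hWm w).1 hw
  have key : ∀ t, InZ S t → x * c * t = t * (x * c) := by
    intro t ht
    have h1 : InZ S (t₁ * x * (c * t * c⁻¹) * (t₁ * x)⁻¹) := hwc _ (conj_mem_map c ht)
    have h2 : x * (c * t * c⁻¹) * x⁻¹ = t₁⁻¹ * (t₁ * x * (c * t * c⁻¹) * (t₁ * x)⁻¹) * t₁ := by group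
    have ht₁' : t₁⁻¹ = t₁ := inv_eq_of_mul_eq_one_right ht₁.2.1
    have h3 : x * (c * t * c⁻¹) * x⁻¹ ∈ S := by
      rw [h2]
      exact mul_mem (mul_mem (inv_mem ht₁.1) h1.1) ht₁.1
    have hxcz : x * c ∈ C := mul_mem (oc_le C hx) hcC
    have h4 := h.zmod hz hz1 hu ht (mem_centralizer_singleton_iff.1 hxcz)
    have h5 : x * c * t * (x * c)⁻¹ * t⁻¹ = x * (c * t * c⁻¹) * x⁻¹ * t⁻¹ := by group
    have h6 := eq_one_of_mem h.syl.two (oc_odd C) (by rw [h5]; exact mul_mem h3 (inv_mem ht.1)) h4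
    rw [mul_inv_eq_one, mul_inv_eq_iff_eq_mul] at h6
    exact h6
  exact ⟨x, hx, h.hZ _ (fun t htS ht2 htc => key t ⟨htS, ht2, htc⟩), key⟩

/-- involutions `s' ∈ S` conjugate under `C(z)` to `t ∈ Z(S)` are equal to `t`. -/
theorem eq_of_conj (h : Sit G S H) {z : G} (hz : InZ S z) (hz1 : z ≠ 1)
    (hu : ∀ x, InZ S x → x ∈ H → x = 1 ∨ x = z) {t : G} (ht : InZ S t) {c : G} (hc : c * z = z * c)
    (hcS : c * t * c⁻¹ ∈ S) : c * t * c⁻¹ = t := by
  have h1 := h.zmod hz hz1 hu ht hc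
  exact mul_inv_eq_one.1 (eq_one_of_mem h.syl.two (oc_odd _) (mul_mem hcS (inv_mem ht.1)) h1)

/-- 2-elements of `N_H(R)` lie in `R`. -/
theorem mem_R_of_norm (h : Sit G S H) {Q : Subgroup G} (hQ : IsPGroup 2 Q) (hQH : Q ≤ H)
    (hQn : Q ≤ normalizer ((S ⊓ H : Subgroup G) : Set G)) : Q ≤ S ⊓ H := by
  have h1 : IsSyl (S ⊓ H) (H ⊓ normalizer ((S ⊓ H : Subgroup G) : Set G)) :=
    h.sylH.mono (le_inf inf_le_right (S ⊓ H).le_normalizer) inf_le_left
  obtain ⟨n, hn, hnQ⟩ := h1.exists_conj hQ (le_inf hQH hQn)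
  intro x hx
  have h2 := conj_inv_mem_of_mem_normalizer (mem_inf.1 hn).2 (hnQ x hx)
  have h3 : n⁻¹ * (n * x * n⁻¹) * n = x := by group
  rwa [h3] at h2

/-- The situation in which `Z(S) ∩ H` contains one involution `z` but `R = S ∩ H` has other central involutions,
and `z` is not weakly closed. -/
theorem case_A_aux (h : Sit G S H) (hr : PRankLE 2 2 H) {z : G} (hz : InZ S z) (hz1 : z ≠ 1) (hzH : z ∈ H)
    (hu : ∀ x, InZ S x → x ∈ H → x = 1 ∨ x = z) {y : G} (hy : y ∈ S ⊓ H) (hy2 : y * y = 1) (hy1 : y ≠ 1)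
    (hyz : y ≠ z) (hyc : ∀ r ∈ S ⊓ H, r * y = y * r) {k : G} (hkS : k * z * k⁻¹ ∈ S)
    (hkz : k * z * k⁻¹ ≠ z) :
    ∃ hf : Four z y, (∀ x ∈ S ⊓ H, x * x = 1 → x ∈ fourGroup hf) ∧ fourGroup hf ≤ S ⊓ H ∧
      (∀ x ∈ fourGroup hf, ∀ r ∈ S ⊓ H, r * x = x * r) ∧
      ∀ v ∈ fourGroup hf, v ≠ 1 → ∃ m ∈ normalizer ((S ⊓ H : Subgroup G) : Set G), m * z * m⁻¹ = v := by
  have hzR : z ∈ S ⊓ H := mem_inf.2 ⟨hz.1, hzH⟩
  have hf : Four z y := ⟨hz.2.1, hy2, (hz.2.2 y (mem_inf.1 hy).1), hz1, hy1, fun h => hyz h.symm⟩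
  have hT : ∀ x ∈ S ⊓ H, x * x = 1 → x ∈ fourGroup hf := fun x hx hx2 =>
    (mem_fourGroup hf).2 (rk hr hzH (mem_inf.1 hy).2 (mem_inf.1 hx).2 hf.zz hf.tt hx2 hf.comm.symm
      (hz.2.2 x (mem_inf.1 hx).1).symm (hyc x hx).symm hf.z1 hf.t1 hf.ne)
  have hVR : fourGroup hf ≤ S ⊓ H := by
    intro x hx
    rcases (mem_fourGroup hf).1 hx with rfl | rfl | rfl | rfl
    · exact one_mem _
    · exact hzR
    · exact hy
    · exact mul_mem hzR hy
  have hVc : ∀ x ∈ fourGroup hf, ∀ r ∈ S ⊓ H, r * x = x * r := by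
    intro x hx r hr
    have h1 := hz.2.2 r (mem_inf.1 hr).1
    have h2 := hyc r hr
    rcases (mem_fourGroup hf).1 hx with rfl | rfl | rfl | rfl
    · rw [one_mul, mul_one]
    · exact h1
    · exact h2
    · rw [← mul_assoc, h1, mul_assoc, h2, mul_assoc]
  refine ⟨hf, hT, hVR, hVc, ?_⟩
  -- an element of `S` moving `y`
  obtain ⟨s, hs, hsy⟩ : ∃ s ∈ S, s * y * s⁻¹ = z * y := by
    obtain ⟨s, hs, hsy⟩ : ∃ s ∈ S, s * y ≠ y * s := by
      by_contra hcon
      push Not at hcon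
      rcases hu y ⟨(mem_inf.1 hy).1, hy2, hcon⟩ (mem_inf.1 hy).2 with h1 | h1
      · exact hy1 h1
      · exact hyz h1
    refine ⟨s, hs, ?_⟩
    have h1 : s * y * s⁻¹ ∈ S ⊓ H :=
      mem_inf.2 ⟨mul_mem (mul_mem hs (mem_inf.1 hy).1) (inv_mem hs), h.Hn s y (mem_inf.1 hy).2⟩
    rcases (mem_fourGroup hf).1 (hT _ h1 (conj_sq s hy2)) with h2 | h2 | h2 | h2
    · exact absurd h2 (conj_ne_one s hy1)
    · exfalso
      apply hyz
      rw [mul_inv_eq_iff_eq_mul, ← hz.2.2 s hs] at h2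
      exact mul_left_cancel h2
    · exact absurd (mul_inv_eq_iff_eq_mul.1 h2) hsy
    · exact h2
  have hsz : s * z * s⁻¹ = z := by rw [hz.2.2 s hs, mul_inv_cancel_right]
  have hszy : s * (z * y) * s⁻¹ = y := by
    rw [Cfsg.Agent.TwoFusion.RankTwoBasic.conj_mul, hsz, hsy, hf.zzt]
  have hsN : s ∈ normalizer ((S ⊓ H : Subgroup G) : Set G) := h.norm_inf (S.le_normalizer hs)
  -- `N(R)` fuses `z` and `z'`
  set z' := k * z * k⁻¹ with hz'
  have hz'R : z' ∈ S ⊓ H := mem_inf.2 ⟨hkS, h.Hn k z hzH⟩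
  have hz'V : z' ∈ fourGroup hf := hT _ hz'R (conj_sq k hz.2.1)
  obtain ⟨m₀, hm₀, hm₀z⟩ : ∃ m ∈ normalizer ((S ⊓ H : Subgroup G) : Set G), m * z * m⁻¹ = z' := by
    have hRD : IsSyl (S ⊓ H) (H ⊓ centralizer ({z'} : Set G)) :=
      h.sylH.mono (le_inf inf_le_right (fun r hr => mem_centralizer_singleton_iff.2 (hVc _ hz'V r hr))) inf_le_left
    obtain ⟨c, hc, hcR⟩ := hRD.exists_conj (isPGroup_map h.sylH.two k) (by
      rintro _ ⟨r, hr, rfl⟩
      refine mem_inf.2 ⟨h.Hn k r (mem_inf.1 hr).2, ?_⟩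
      rw [mem_centralizer_singleton_iff]
      show k * r * k⁻¹ * z' = z' * (k * r * k⁻¹)
      calc k * r * k⁻¹ * z' = k * (r * z) * k⁻¹ := by rw [hz']; group
        _ = k * (z * r) * k⁻¹ := by rw [hz.2.2 r (mem_inf.1 hr).1]
        _ = _ := by rw [hz']; group)
    refine ⟨c * k, ?_, ?_⟩
    · apply mem_normalizer_of_conj_le
      intro r hr
      have h1 := hcR _ (conj_mem_map k hr)
      have h2 : c * (k * r * k⁻¹) * c⁻¹ = c * k * r * (c * k)⁻¹ := by group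
      rwa [h2] at h1
    · have h1 := mem_centralizer_singleton_iff.1 (mem_inf.1 hc).2
      rw [conj_conj, ← hz', h1, mul_inv_cancel_right]
  have hz'ne : z' ≠ 1 := conj_ne_one k hz1
  -- transitivity
  intro v hv hv1
  have hs0 : s * m₀ * z * (s * m₀)⁻¹ = s * z' * s⁻¹ := by rw [conj_conj, hm₀z]
  rcases (mem_fourGroup hf).1 hv with h1 | h1 | h1 | h1
  · exact absurd h1 hv1
  · exact ⟨1, one_mem _, by rw [h1]; group⟩
  · rcases (mem_fourGroup hf).1 hz'V with h2 | h2 | h2 | h2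
    · exact absurd h2 hz'ne
    · exact absurd h2 hkz
    · exact ⟨m₀, hm₀, by rw [hm₀z, h2, h1]⟩
    · exact ⟨s * m₀, mul_mem hsN hm₀, by rw [hs0, h2, hszy, h1]⟩
  · rcases (mem_fourGroup hf).1 hz'V with h2 | h2 | h2 | h2
    · exact absurd h2 hz'ne
    · exact absurd h2 hkz
    · exact ⟨s * m₀, mul_mem hsN hm₀, by rw [hs0, h2, hsy, h1]⟩
    · exact ⟨m₀, hm₀, by rw [hm₀z, h2, h1]⟩

/-- In case A, `Ω₁(Z(S)) ≤ H`. -/
theorem case_A_le (h : Sit G S H) {z : G} (hz : InZ S z) (hz1 : z ≠ 1) (hzH : z ∈ H)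
    (hu : ∀ x, InZ S x → x ∈ H → x = 1 ∨ x = z) {y : G} (hf : Four z y)
    (hT : ∀ x ∈ S ⊓ H, x * x = 1 → x ∈ fourGroup hf) (hVR : fourGroup hf ≤ S ⊓ H)
    (htr : ∀ v ∈ fourGroup hf, v ≠ 1 → ∃ m ∈ normalizer ((S ⊓ H : Subgroup G) : Set G), m * z * m⁻¹ = v)
    {t : G} (ht : InZ S t) : t ∈ H := by
  by_contra htH
  set V := fourGroup hf with hV
  set C : Subgroup G := normalizer (V : Set G) with hC
  have hCs : Group.IsSolvable C := h.sol_four hf
  have hNC : normalizer ((S ⊓ H : Subgroup G) : Set G) ≤ C := fun g hg => mem_norm_four hf hT hVR hg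
  have hSC : S ≤ C := fun s hs => hNC (h.norm_inf (S.le_normalizer hs))
  have hSC' : S ⊓ C = S := inf_eq_left.2 hSC
  have hVC : V ≤ C := fun x hx => hSC (mem_inf.1 (hVR hx)).1
  obtain ⟨v, hvH, hvS, hvC, hv2, hvc, hvm⟩ := h.central_mod C hCs (by rw [hSC']; exact h.syl.mono hSC le_top)
    ht.1 (hSC ht.1) ht.2.1 ht.2.2
  have hvZ : InZ S v := ⟨hvS, hv2, fun s hs => hvc s hs (hSC hs)⟩
  have ht0 : InZ S (t * v) := ht.mul hvZ
  have ht0H : t * v ∉ H := fun h1 => htH (by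
    have h2 := mul_mem h1 (inv_mem hvH)
    rwa [mul_inv_cancel_right] at h2)
  apply h.zstar ht0 ht0H
  intro g hg
  set t₀ := t * v with ht₀
  set s' := g * t₀ * g⁻¹ with hs'
  have hSg : S.map (MulAut.conj g).toMonoidHom ≤ centralizer ({s'} : Set G) := by
    rintro _ ⟨x, hx, rfl⟩
    rw [mem_centralizer_singleton_iff]
    show g * x * g⁻¹ * s' = s' * (g * x * g⁻¹)
    calc g * x * g⁻¹ * s' = g * (x * t₀) * g⁻¹ := by rw [hs']; group
      _ = g * (t₀ * x) * g⁻¹ := by rw [ht0.2.2 x hx]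
      _ = _ := by rw [hs']; group
  have hsylg : IsSyl (S.map (MulAut.conj g).toMonoidHom) (centralizer ({s'} : Set G)) :=
    (h.syl.conj (g := g) ((⊤ : Subgroup G).le_normalizer (mem_top g))).mono hSg le_top
  obtain ⟨c, hc, hcz⟩ := hsylg.exists_conj (isPGroup_zpowers hz.2.1) (by
    rw [Subgroup.zpowers_le, mem_centralizer_singleton_iff]
    exact (hz.2.2 s' hg).symm)
  rw [mem_centralizer_singleton_iff] at hc
  have h1 := mem_map_conj.1 (hcz z (Subgroup.mem_zpowers z))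
  set n := g⁻¹ * c with hn
  have h2 : g⁻¹ * (c * z * c⁻¹) * g = n * z * n⁻¹ := by rw [hn]; group
  rw [h2] at h1
  have hnV : n * z * n⁻¹ ∈ V := hT _ (mem_inf.2 ⟨h1, h.Hn n z hzH⟩) (conj_sq n hz.2.1)
  have hns : n * s' * n⁻¹ = t₀ := by
    calc n * s' * n⁻¹ = g⁻¹ * (c * s' * c⁻¹) * g := by rw [hn]; group
      _ = g⁻¹ * s' * g := by rw [hc, mul_inv_cancel_right]
      _ = t₀ := by rw [hs']; group
  obtain ⟨m, hm, hmz⟩ := htr _ hnV (conj_ne_one n hz1)
  obtain ⟨e, he, hem⟩ := exists_mul_conj_eq (oc_odd C) ht0.2.1 (hvm m (hNC hm))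
  have heC : e ∈ C := oc_le C he
  have hev : ∀ x ∈ V, e * x * e⁻¹ = x := by
    intro x hx
    have h3 : e * x * e⁻¹ * x⁻¹ ∈ V := mul_mem (conj_mem_of_mem_normalizer heC hx) (inv_mem hx)
    have h4 : e * x * e⁻¹ * x⁻¹ ∈ oc C := by
      have h5 : e * x * e⁻¹ * x⁻¹ = e * (x * e⁻¹ * x⁻¹) := by group
      rw [h5]
      exact mul_mem he (conj_mem_oc' (hVC hx) (inv_mem he))
    exact mul_inv_eq_one.1 (eq_one_of_mem (isPGroup_four hf) (oc_odd C) h3 h4)
  have hemz : e * m * z * (e * m)⁻¹ = n * z * n⁻¹ := by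
    rw [conj_conj, hmz]
    exact hev _ hnV
  -- `q = n⁻¹ (e m)` commutes with `z`
  set q := n⁻¹ * (e * m) with hq
  have hqz : q * z = z * q := by
    have h3 : n⁻¹ * (e * m * z * (e * m)⁻¹) * n = z := by rw [hemz]; group
    calc q * z = n⁻¹ * (e * m * z * (e * m)⁻¹) * n * (n⁻¹ * (e * m)) := by rw [hq]; group
      _ = z * q := by rw [h3]
  have hqt : q * t₀ * q⁻¹ = s' := by
    calc q * t₀ * q⁻¹ = n⁻¹ * (e * m * t₀ * (e * m)⁻¹) * n := by rw [hq]; group
      _ = n⁻¹ * t₀ * n := by rw [hem]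
      _ = n⁻¹ * (n * s' * n⁻¹) * n := by rw [hns]
      _ = s' := by group
  have h3 := h.eq_of_conj hz hz1 hu ht0 hqz (by rw [hqt]; exact hg)
  rw [hqt] at h3
  exact h3

/-- `N_H(R)` is strongly embedded if the involutions of `R` are central in `R` and their centralizers in `H`
normalize `R`. -/
theorem strongly_embedded (h : Sit G S H) (hc : ∀ v ∈ S ⊓ H, v * v = 1 → v ≠ 1 → (∀ r ∈ S ⊓ H, r * v = v * r) ∧
      ∀ g ∈ H, g * v = v * g → g ∈ normalizer ((S ⊓ H : Subgroup G) : Set G)) :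
    ∃ M : Subgroup H, IsStronglyEmbedded M := by
  have : Fact (Nat.Prime 2) := ⟨Nat.prime_two⟩
  obtain ⟨z, hz, hzH, hz1⟩ := h.exists_z
  have hzR : z ∈ S ⊓ H := mem_inf.2 ⟨hz.1, hzH⟩
  refine ⟨(normalizer ((S ⊓ H : Subgroup G) : Set G)).subgroupOf H, ?_, ?_, ?_⟩
  · intro htop
    rw [Subgroup.subgroupOf_eq_top] at htop
    have hn : (S ⊓ H).Normal := ⟨fun x hx g => by
      obtain ⟨k, hk, s, hs, rfl⟩ := h.HS g
      exact conj_mem_of_mem_normalizer (mul_mem (htop hk) (h.norm_inf (S.le_normalizer hs))) hx⟩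
    exact h.R_ne_bot (h.O2 _ hn h.sylH.two)
  · have h1 : orderOf (⟨⟨z, hzH⟩, mem_subgroupOf.2 ((S ⊓ H).le_normalizer hzR)⟩ :
        (normalizer ((S ⊓ H : Subgroup G) : Set G)).subgroupOf H) = 2 := by
      apply orderOf_eq_prime
      · apply Subtype.ext
        apply Subtype.ext
        rw [pow_two]
        exact hz.2.1
      · intro h2
        exact hz1 (congrArg Subtype.val (congrArg Subtype.val h2))
    rw [even_iff_two_dvd, ← h1]
    exact orderOf_dvd_natCard _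
  · intro g hg
    by_contra hcon
    rw [Nat.not_odd_iff_even, even_iff_two_dvd] at hcon
    obtain ⟨⟨u, hu⟩, hu2⟩ := exists_prime_orderOf_dvd_card' 2 hcon
    rw [Subgroup.orderOf_mk] at hu2
    obtain ⟨huM, huM'⟩ := mem_inf.1 hu
    rw [mem_map_conj] at huM'
    rw [mem_subgroupOf] at huM huM'
    have huu : u * u = 1 := by rw [← pow_two, ← hu2, pow_orderOf_eq_one]
    have huu' : (u : G) * u = 1 := congrArg Subtype.val huu
    have hu1 : (u : G) ≠ 1 := by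
      intro h1
      have h2 : u = 1 := Subtype.ext h1
      rw [h2, orderOf_one] at hu2
      norm_num at hu2
    have huR : (u : G) ∈ S ⊓ H := h.mem_R_of_norm (isPGroup_zpowers huu') (by
      rw [Subgroup.zpowers_le]
      exact u.2) (by
      rw [Subgroup.zpowers_le]
      exact huM) (Subgroup.mem_zpowers _)
    set v : G := (g : G)⁻¹ * u * g with hv
    have hvv : v * v = 1 := by
      have h1 := conj_sq (g : G)⁻¹ huu'
      rwa [inv_inv] at h1
    have hvH : v ∈ H := mul_mem (mul_mem (inv_mem g.2) u.2) g.2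
    have hvR : v ∈ S ⊓ H := h.mem_R_of_norm (isPGroup_zpowers hvv) (by
      rw [Subgroup.zpowers_le]
      exact hvH) (by
      rw [Subgroup.zpowers_le]
      exact huM') (Subgroup.mem_zpowers _)
    have hv1 : v ≠ 1 := by
      have h1 := conj_ne_one (g : G)⁻¹ hu1
      rwa [inv_inv] at h1
    apply hg
    rw [mem_subgroupOf]
    -- `g⁻¹ R g ≤ C_H(v) ≤ N(R)`
    have hle : (S ⊓ H).map (MulAut.conj (g : G)⁻¹).toMonoidHom ≤ S ⊓ H := by
      apply h.mem_R_of_norm (isPGroup_map h.sylH.two _)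
      · rintro _ ⟨r, hr, rfl⟩
        exact h.Hn _ r (mem_inf.1 hr).2
      · rintro _ ⟨r, hr, rfl⟩
        apply (hc v hvR hvv hv1).2 _ (h.Hn _ r (mem_inf.1 hr).2)
        have h1 := (hc u huR huu' hu1).1 r hr
        show (g : G)⁻¹ * r * (g : G)⁻¹⁻¹ * v = v * ((g : G)⁻¹ * r * (g : G)⁻¹⁻¹)
        calc (g : G)⁻¹ * r * (g : G)⁻¹⁻¹ * v = (g : G)⁻¹ * (r * u) * g := by rw [hv]; group
          _ = (g : G)⁻¹ * (u * r) * g := by rw [h1]
          _ = _ := by rw [hv]; group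
    have h1 : (g : G)⁻¹ ∈ normalizer ((S ⊓ H : Subgroup G) : Set G) :=
      mem_normalizer_of_conj_le fun r hr => hle (conj_mem_map _ hr)
    have h2 := inv_mem h1
    rwa [inv_inv] at h2

/-- Case A. -/
theorem case_A (h : Sit G S H) (hr : PRankLE 2 2 H) {z : G} (hz : InZ S z) (hz1 : z ≠ 1) (hzH : z ∈ H)
    (hu : ∀ x, InZ S x → x ∈ H → x = 1 ∨ x = z) {y : G} (hy : y ∈ S ⊓ H) (hy2 : y * y = 1) (hy1 : y ≠ 1)
    (hyz : y ≠ z) (hyc : ∀ r ∈ S ⊓ H, r * y = y * r) {k : G} (hkS : k * z * k⁻¹ ∈ S)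
    (hkz : k * z * k⁻¹ ≠ z) : ∃ M : Subgroup H, IsStronglyEmbedded M := by
  obtain ⟨hf, hT, hVR, hVc, htr⟩ := h.case_A_aux hr hz hz1 hzH hu hy hy2 hy1 hyz hyc hkS hkz
  have hle : ∀ t, InZ S t → t = 1 ∨ t = z := fun t ht => hu t ht (h.case_A_le hz hz1 hzH hu hf hT hVR htr ht)
  have hCz : ∀ c, c * z = z * c → c ∈ normalizer (S : Set G) := by
    intro c hc
    apply h.hZ
    intro t htS ht2 htc
    rcases hle t ⟨htS, ht2, htc⟩ with rfl | rfl
    · rw [mul_one, one_mul]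
    · exact hc
  apply h.strongly_embedded
  intro v hv hv2 hv1
  have hvV := hT v hv hv2
  refine ⟨hVc v hvV, fun g _ hgv => ?_⟩
  obtain ⟨m, hm, hmz⟩ := htr v hvV hv1
  have h1 : m⁻¹ * g * m ∈ normalizer (S : Set G) := by
    apply hCz
    have h2 : m⁻¹ * v * m = z := by rw [← hmz]; group
    calc m⁻¹ * g * m * z = m⁻¹ * (g * (m * z * m⁻¹)) * m := by group
      _ = m⁻¹ * (v * g) * m := by rw [hmz, hgv]
      _ = (m⁻¹ * v * m) * (m⁻¹ * g * m) := by group
      _ = z * (m⁻¹ * g * m) := by rw [h2]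
  have h2 := h.norm_inf h1
  have h3 := mul_mem (mul_mem hm h2) (inv_mem hm)
  have h4 : m * (m⁻¹ * g * m) * m⁻¹ = g := by group
  rwa [h4] at h3

/-- The hypotheses of `RankTwoMain`. -/
theorem hyp_B (h : Sit G S H) (hr : PRankLE 2 2 H) (hres : pResidual 2 H = ⊤) {z : G} (hz : InZ S z) (hz1 : z ≠ 1)
    (hzH : z ∈ H) (hu : ∀ x, InZ S x → x ∈ H → x = 1 ∨ x = z)
    (huR : ∀ y ∈ S ⊓ H, y * y = 1 → (∀ r ∈ S ⊓ H, r * y = y * r) → y = 1 ∨ y = z) :
    RankTwoMain.Hyp H ((S ⊓ H : Subgroup G).subgroupOf H) ((oc (centralizer ({z} : Set G))).subgroupOf H)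
      ⟨z, hzH⟩ := by
  have hzR : z ∈ S ⊓ H := mem_inf.2 ⟨hz.1, hzH⟩
  have hXH : oc (centralizer ({z} : Set G)) ≤ H := h.le_of_odd (oc_odd _)
  exact
    { syl := by
        refine ⟨le_top, h.sylH.two.comap_subtype, fun Q hQ _ hle => ?_⟩
        have h1 := h.sylH.max (Q.map H.subtype) (hQ.map _) (by rintro _ ⟨x, -, rfl⟩; exact x.2)
          (fun x hx => ⟨⟨x, (mem_inf.1 hx).2⟩, hle (mem_subgroupOf.2 hx), rfl⟩)
        ext x
        rw [mem_subgroupOf, ← h1]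
        constructor
        · intro hx
          exact ⟨x, hx, rfl⟩
        · rintro ⟨y, hy, hyx⟩
          have h2 : y = x := Subtype.ext hyx
          rwa [← h2]
      res := hres
      rank := hr
      zR := mem_subgroupOf.2 hzR
      z1 := fun h1 => hz1 (congrArg Subtype.val h1)
      z2 := Subtype.ext hz.2.1
      zc := fun r hr' => Subtype.ext (hz.2.2 r (mem_inf.1 (mem_subgroupOf.1 hr')).1)
      uz := by
        intro x hx hx2 hxc
        rcases huR x (mem_subgroupOf.1 hx) (congrArg Subtype.val hx2) (fun r hr' =>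
          congrArg Subtype.val (hxc ⟨r, (mem_inf.1 hr').2⟩ (mem_subgroupOf.2 hr'))) with h1 | h1
        · exact Or.inl (Subtype.ext h1)
        · exact Or.inr (Subtype.ext h1)
      Xodd := by
        rw [Nat.card_congr (subgroupOfEquivOfLe hXH).toEquiv]
        exact oc_odd _
      Xc := fun x hx => Subtype.ext (mem_centralizer_singleton_iff.1 (oc_le _ (mem_subgroupOf.1 hx)))
      Xn := by
        intro c hc x hx
        rw [mem_subgroupOf] at hx ⊢
        exact conj_mem_oc' (mem_centralizer_singleton_iff.2 (congrArg Subtype.val hc)) hx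
      Xz := by
        intro c hc
        obtain ⟨x, hx, hxc, -⟩ := h.Zprime hz hz1 hu (c := c) (congrArg Subtype.val hc)
        refine ⟨⟨x, hXH hx⟩, mem_subgroupOf.2 hx, ?_⟩
        apply mem_normalizer_of_conj_le
        intro r hr'
        rw [mem_subgroupOf] at hr' ⊢
        exact conj_mem_of_mem_normalizer (h.norm_inf hxc) hr' }

/-- Case B: `z` is the only involution of `Z(R)`. -/
theorem case_B (h : Sit G S H) (hr : PRankLE 2 2 H) (hres : pResidual 2 H = ⊤) {z : G} (hz : InZ S z) (hz1 : z ≠ 1)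
    (hzH : z ∈ H) (hu : ∀ x, InZ S x → x ∈ H → x = 1 ∨ x = z)
    (huR : ∀ y ∈ S ⊓ H, y * y = 1 → (∀ r ∈ S ⊓ H, r * y = y * r) → y = 1 ∨ y = z) {k : G} (hk : k ∈ H)
    (hkS : k * z * k⁻¹ ∈ S) (hkz : k * z * k⁻¹ ≠ z) :
    (∃ n : ℕ, 2 ≤ n ∧ Nonempty (((S ⊓ H : Subgroup G).subgroupOf H) ≃* DihedralGroup n)) ∨
      IsQuasiDihedral ((S ⊓ H : Subgroup G).subgroupOf H) :=
  (h.hyp_B hr hres hz hz1 hzH hu huR).main (w₀ := ⟨k * z * k⁻¹, h.Hn k z hzH⟩)
    (mem_subgroupOf.2 (mem_inf.2 ⟨hkS, h.Hn k z hzH⟩))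
    (fun h1 => hkz (congrArg Subtype.val h1)) ⟨⟨k, hk⟩, Subtype.ext rfl⟩

end Sit

end Cfsg.Agent.H444.ZNSit
end

private theorem dce_2b226dbd9a03 : _root_.True := by
  try have : _root_.True := by simp only [_root_.Cfsg.Agent.TwoFusion.RankTwoBasic.Pres.eq_1]
  try have : _root_.True := by simp only [_root_.Cfsg.Agent.H444.RankTwoMain.Hyp.fourGroup.congr_simp]
  exact _root_.True.intro
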